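import Mathlib
import Cfsg.Agent.Helper5.BlkMinMax

/-!
# Nilpotency of the augmentation ideal of a `p`-group in characteristic `p` (helper22)

* `augNil_aux` / `augNil`: a finite `p`-group `P` acting on a `p`-torsion abelian group `V`; an
  endomorphism `T` commuting with the action and killing the fixed vectors is nilpotent.
* `sum_eq_zero_of_no_fixed`: an invariant sum over a fixed-point-free `p`-group conjugation
  orbit-union vanishes in a `p`-torsion additive monoid.
-/

set_option autoImplicit false

namespace Cfsg.Agent.Helper22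

universe u v

/-- pointwise powers of a restricted endomorphism -/
theorem augNil_pow_restrict {V : Type v} [AddCommGroup V] (W : AddSubgroup V)
    (T : AddMonoid.End V) (T' : AddMonoid.End W)
    (h : ∀ w : W, ((T' w : W) : V) = T (w : V)) (n : ℕ) (w : W) :
    (((T' ^ n) w : W) : V) = (T ^ n) (w : V) := by
  induction n generalizing w with
  | zero =>
    rw [pow_zero, pow_zero]
    rfl
  | succ n ih =>
    rw [pow_succ, pow_succ]
    show (((T' ^ n) (T' w) : W) : V) = (T ^ n) (T (w : V))
    rw [ih, h]

theorem augNil_aux (p : ℕ) [hp : Fact p.Prime] (n : ℕ) :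
    ∀ (P : Type u) [Group P] [Finite P] (V : Type v) [AddCommGroup V],
      Nat.card P ≤ n → IsPGroup p P → (∀ v : V, p • v = 0) →
      ∀ (ρ : P →* AddMonoid.End V) (T : AddMonoid.End V),
        (∀ u, Commute T (ρ u)) → (∀ v, (∀ u, ρ u v = v) → T v = 0) → ∃ N : ℕ, T ^ N = 0 := by
  induction n with
  | zero =>
    intro P _ _ V _ hcard
    exact absurd hcard (by have := Nat.card_pos (α := P); omega)
  | succ n ih =>
    intro P _ _ V _ hcard hP hpV ρ T hT hfix
    rcases subsingleton_or_nontrivial P with hsub | hnt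
    · refine ⟨1, ?_⟩
      rw [pow_one]
      refine AddMonoidHom.ext fun v => ?_
      refine hfix v (fun u => ?_)
      have : u = 1 := Subsingleton.elim u 1
      rw [this, map_one]
      rfl
    rcases subsingleton_or_nontrivial V with hVs | hVn
    · exact ⟨1, AddMonoidHom.ext fun v => Subsingleton.elim _ _⟩
    -- central element
    haveI := hP.center_nontrivial
    obtain ⟨⟨z, hz⟩, hz1⟩ := exists_ne (1 : Subgroup.center P)
    have hz1' : z ≠ 1 := fun h => hz1 (Subtype.ext h)
    have hzc : ∀ u : P, u * z = z * u := fun u => Subgroup.mem_center_iff.mp hz u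
    haveI hZn : (Subgroup.zpowers z).Normal := by
      constructor
      intro x hx u
      have hxc : x ∈ Subgroup.center P := (Subgroup.zpowers_le.mpr hz) hx
      have := Subgroup.mem_center_iff.mp hxc u
      rw [this, mul_inv_cancel_right]
      exact hx
    -- the ring has char p
    haveI : Nontrivial (AddMonoid.End V) := by
      obtain ⟨v, hv⟩ := exists_ne (0 : V)
      refine ⟨⟨1, 0, fun h => hv ?_⟩⟩
      exact DFunLike.congr_fun h v
    haveI : CharP (AddMonoid.End V) p := by
      rw [CharP.charP_iff_prime_eq_zero hp.out]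
      refine AddMonoidHom.ext fun v => ?_
      exact hpV v
    obtain ⟨k, hk⟩ := hP z
    have hD : (ρ z - 1) ^ (p ^ k) = 0 := by
      rw [sub_pow_char_pow_of_commute p k (Commute.one_right _), one_pow, ← map_pow, hk, map_one,
        sub_self]
    have hTD : Commute T (ρ z - 1) := (hT z).sub_right (Commute.one_right T)
    -- the fixed space of z
    let W : AddSubgroup V :=
      { carrier := {v | ρ z v = v}
        zero_mem' := map_zero _
        add_mem' := by
          intro a b ha hb
          show ρ z (a + b) = a + b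
          rw [map_add, ha, hb]
        neg_mem' := by
          intro a ha
          show ρ z (-a) = -a
          rw [map_neg, ha] }
    have hWmem : ∀ v : V, v ∈ W ↔ ρ z v = v := fun v => Iff.rfl
    have hρW : ∀ (u : P) (w : W), ρ u (w : V) ∈ W := by
      intro u w
      rw [hWmem]
      have h1 : ρ z (ρ u (w : V)) = (ρ z * ρ u) (w : V) := rfl
      rw [h1, ← map_mul, ← hzc u, map_mul]
      show ρ u (ρ z (w : V)) = ρ u (w : V)
      rw [(hWmem _).mp w.2]
    let ρ₁ : P →* AddMonoid.End W :=
      { toFun := fun u =>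
          (AddMonoidHom.comp (show V →+ V from ρ u) W.subtype).codRestrict W (fun w => hρW u w)
        map_one' := by
          refine AddMonoidHom.ext fun w => Subtype.ext ?_
          show ρ 1 (w : V) = (w : V)
          rw [map_one]; rfl
        map_mul' := by
          intro a b
          refine AddMonoidHom.ext fun w => Subtype.ext ?_
          show ρ (a * b) (w : V) = ρ a (ρ b (w : V))
          rw [map_mul]; rfl }
    have hker : Subgroup.zpowers z ≤ ρ₁.ker := by
      rw [Subgroup.zpowers_le, MonoidHom.mem_ker]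
      refine AddMonoidHom.ext fun w => Subtype.ext ?_
      show ρ z (w : V) = (w : V)
      exact (hWmem _).mp w.2
    let ρ' : P ⧸ Subgroup.zpowers z →* AddMonoid.End W := QuotientGroup.lift _ ρ₁ hker
    have hTW : ∀ w : W, T (w : V) ∈ W := by
      intro w
      rw [hWmem]
      have h1 : ρ z (T (w : V)) = (ρ z * T) (w : V) := rfl
      rw [h1, ← (hT z).eq]
      show T (ρ z (w : V)) = T (w : V)
      rw [(hWmem _).mp w.2]
    let T' : AddMonoid.End W :=
      (AddMonoidHom.comp (show V →+ V from T) W.subtype).codRestrict W hTW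
    have hT' : ∀ w : W, ((T' w : W) : V) = T (w : V) := fun w => rfl
    have hcard' : Nat.card (P ⧸ Subgroup.zpowers z) ≤ n := by
      have h1 := Subgroup.card_eq_card_quotient_mul_card_subgroup (Subgroup.zpowers z)
      have h2 : 2 ≤ Nat.card (Subgroup.zpowers z) := by
        by_contra hlt
        have hpos : 0 < Nat.card (Subgroup.zpowers z) := Nat.card_pos
        have h1' : Nat.card (Subgroup.zpowers z) = 1 := by omega
        rw [Nat.card_zpowers] at h1'
        exact hz1' (orderOf_eq_one_iff.mp h1')
      have hq : 0 < Nat.card (P ⧸ Subgroup.zpowers z) := Nat.card_pos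
      have h3 := Nat.mul_le_mul_left (Nat.card (P ⧸ Subgroup.zpowers z)) h2
      omega
    have hcomm' : ∀ ū : P ⧸ Subgroup.zpowers z, Commute T' (ρ' ū) := by
      intro ū
      obtain ⟨u, rfl⟩ := QuotientGroup.mk_surjective ū
      have h2 : ρ' (QuotientGroup.mk u) = ρ₁ u := QuotientGroup.lift_mk _ hker u
      rw [h2]
      show T' * ρ₁ u = ρ₁ u * T'
      refine AddMonoidHom.ext fun w => Subtype.ext ?_
      show T (ρ u (w : V)) = ρ u (T (w : V))
      exact DFunLike.congr_fun (hT u).eq (w : V)
    have hfix' : ∀ w : W, (∀ ū : P ⧸ Subgroup.zpowers z, ρ' ū w = w) → T' w = 0 := by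
      intro w hw
      apply Subtype.ext
      show T (w : V) = 0
      apply hfix
      intro u
      have h3 := hw (QuotientGroup.mk u)
      have h2 : ρ' (QuotientGroup.mk u) = ρ₁ u := QuotientGroup.lift_mk _ hker u
      rw [h2] at h3
      exact congrArg Subtype.val h3
    obtain ⟨N', hN'⟩ := ih (P ⧸ Subgroup.zpowers z) W hcard' (hP.to_quotient _)
      (fun w => Subtype.ext (by simpa using hpV (w : V))) ρ' T' hcomm' hfix'
    have hkill : ∀ w : V, w ∈ W → (T ^ N') w = 0 := by
      intro w hw
      have := augNil_pow_restrict W T T' hT' N' ⟨w, hw⟩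
      rw [hN'] at this
      exact this.symm
    have hstep : ∀ (j : ℕ) (v : V), ((ρ z - 1) ^ j) v = 0 → (T ^ (N' * j)) v = 0 := by
      intro j
      induction j with
      | zero =>
        intro v hv
        have hv0 : v = 0 := by
          rw [pow_zero] at hv
          exact hv
        rw [hv0, map_zero]
      | succ j ihj =>
        intro v hv
        have h1 : (ρ z - 1) (((ρ z - 1) ^ j) v) = 0 := by
          rw [pow_succ'] at hv
          exact hv
        have h2 : ((ρ z - 1) ^ j) v ∈ W := by
          rw [hWmem]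
          have : ρ z (((ρ z - 1) ^ j) v) - ((ρ z - 1) ^ j) v = 0 := h1
          exact sub_eq_zero.mp this
        have h3 := hkill _ h2
        have hc : Commute (T ^ N') ((ρ z - 1) ^ j) := (hTD.pow_left N').pow_right j
        have h4 : ((ρ z - 1) ^ j) ((T ^ N') v) = 0 := by
          have : ((ρ z - 1) ^ j) ((T ^ N') v) = ((ρ z - 1) ^ j * T ^ N') v := rfl
          rw [this, ← hc.eq]
          exact h3
        have h5 := ihj _ h4
        rw [Nat.mul_succ, pow_add]
        exact h5
    refine ⟨N' * p ^ k, ?_⟩
    refine AddMonoidHom.ext fun v => ?_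
    show (T ^ (N' * p ^ k)) v = 0
    refine hstep _ v ?_
    rw [hD]
    rfl

/-- a finite `p`-group acting on a `p`-torsion abelian group: an endomorphism commuting with the
action and killing the fixed vectors is nilpotent. -/
theorem augNil (p : ℕ) [Fact p.Prime] (P : Type u) [Group P] [Finite P] (V : Type v)
    [AddCommGroup V] (hP : IsPGroup p P) (hpV : ∀ v : V, p • v = 0)
    (ρ : P →* AddMonoid.End V) (T : AddMonoid.End V)
    (hT : ∀ u, Commute T (ρ u)) (hfix : ∀ v, (∀ u, ρ u v = v) → T v = 0) :
    ∃ N : ℕ, T ^ N = 0 :=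
  augNil_aux p (Nat.card P) P V le_rfl hP hpV ρ T hT hfix

/-- an invariant sum over a set on which a `p`-group acts by conjugation without fixed points
vanishes in a `p`-torsion additive monoid. -/
theorem sum_eq_zero_of_no_fixed {G : Type u} [Group G] {p : ℕ} [Fact p.Prime] {V : Type v}
    [AddCommMonoid V] (hpV : ∀ v : V, p • v = 0) (Q : Subgroup G) (hQ : IsPGroup p Q)
    (X : Finset G) (hstab : ∀ u ∈ Q, ∀ x ∈ X, u * x * u⁻¹ ∈ X)
    (hfix : ∀ x ∈ X, ¬ (∀ u ∈ Q, u * x * u⁻¹ = x)) (f : G → V)
    (hf : ∀ u ∈ Q, ∀ x ∈ X, f (u * x * u⁻¹) = f x) : ∑ x ∈ X, f x = 0 := by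
  classical
  rw [← Finset.sum_fiberwise_of_maps_to (g := f) (t := X.image f)
    (fun x hx => Finset.mem_image_of_mem f hx)]
  refine Finset.sum_eq_zero fun v hv => ?_
  rw [Finset.sum_congr rfl (fun x hx => (Finset.mem_filter.mp hx).2), Finset.sum_const]
  have hdvd : p ∣ (X.filter (fun x => f x = v)).card := by
    refine Cfsg.Agent.Helper5.card_dvd_of_no_fixed Q hQ _ ?_ ?_
    · intro u hu x hx
      rw [Finset.mem_filter] at hx ⊢
      exact ⟨hstab u hu x hx.1, by rw [hf u hu x hx.1, hx.2]⟩
    · intro x hx
      exact hfix x (Finset.mem_filter.mp hx).1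
  obtain ⟨m, hm⟩ := hdvd
  rw [hm, mul_comm, mul_smul, hpV, smul_zero]

/-- the class sum of an element no conjugate of which centralizes a normal `p`-subgroup `Q` is
nilpotent in the group algebra over a field of characteristic `p`. -/
theorem classSum_nilpotent {G : Type u} [Group G] [Fintype G] [DecidableEq G] (p : ℕ)
    [Fact p.Prime] (F : Type v) [Field F] [CharP F p] (Q : Subgroup G) (hQn : Q.Normal)
    (hQp : IsPGroup p Q) (g : G)
    (hg : ∀ x : G, IsConj g x → x ∉ Subgroup.centralizer (Q : Set G)) :
    IsNilpotent (∑ x ∈ Finset.univ.filter (fun x => IsConj g x),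
      MonoidAlgebra.single x (1 : F) : MonoidAlgebra F G) := by
  classical
  set Kf : Finset G := Finset.univ.filter (fun x => IsConj g x) with hKf
  set Khat : MonoidAlgebra F G := ∑ x ∈ Kf, MonoidAlgebra.single x (1 : F) with hKhat
  have hpA : ∀ a : MonoidAlgebra F G, p • a = 0 := fun a => by
    rw [← Nat.cast_smul_eq_nsmul F, CharP.cast_eq_zero, zero_smul]
  let L : MonoidAlgebra F G →+* AddMonoid.End (MonoidAlgebra F G) :=
    Module.toAddMonoidEnd (MonoidAlgebra F G) (MonoidAlgebra F G)
  have hL : ∀ a b : MonoidAlgebra F G, L a b = a * b := fun a b => rfl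
  let ρ : Q →* AddMonoid.End (MonoidAlgebra F G) :=
    (L : MonoidAlgebra F G →* AddMonoid.End (MonoidAlgebra F G)).comp
      ((MonoidAlgebra.of F G).comp Q.subtype)
  have hρ : ∀ (u : Q) (a : MonoidAlgebra F G),
      ρ u a = MonoidAlgebra.single (u : G) (1 : F) * a := fun u a => rfl
  have hcentral : ∀ u : G, Khat * MonoidAlgebra.single u (1 : F) =
      MonoidAlgebra.single u (1 : F) * Khat := by
    intro u
    rw [hKhat, Finset.sum_mul, Finset.mul_sum]
    refine Finset.sum_nbij' (fun x => u⁻¹ * x * u) (fun x => u * x * u⁻¹) ?_ ?_ ?_ ?_ ?_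
    · intro x hx
      rw [hKf, Finset.mem_filter] at hx ⊢
      exact ⟨Finset.mem_univ _, hx.2.trans (isConj_iff.mpr ⟨u⁻¹, by rw [inv_inv]⟩)⟩
    · intro x hx
      rw [hKf, Finset.mem_filter] at hx ⊢
      exact ⟨Finset.mem_univ _, hx.2.trans (isConj_iff.mpr ⟨u, rfl⟩)⟩
    · intro x _
      group
    · intro x _
      group
    · intro x _
      rw [MonoidAlgebra.single_mul_single, MonoidAlgebra.single_mul_single]
      congr 1
      group
  have hT : ∀ u : Q, Commute (L Khat) (ρ u) := by
    intro u
    show L Khat * L (MonoidAlgebra.single (u : G) (1 : F)) =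
      L (MonoidAlgebra.single (u : G) (1 : F)) * L Khat
    rw [← map_mul, ← map_mul, hcentral]
  have hfix : ∀ v : MonoidAlgebra F G, (∀ u : Q, ρ u v = v) → L Khat v = 0 := by
    intro v hv
    have hv' : ∀ u ∈ Q, MonoidAlgebra.single u (1 : F) * v = v := fun u hu => hv ⟨u, hu⟩
    rw [hL, hKhat, Finset.sum_mul]
    refine sum_eq_zero_of_no_fixed (p := p) hpA Q hQp Kf ?_ ?_
      (fun x => MonoidAlgebra.single x (1 : F) * v) ?_
    · intro u hu x hx
      rw [hKf, Finset.mem_filter] at hx ⊢
      exact ⟨Finset.mem_univ _, hx.2.trans (isConj_iff.mpr ⟨u, rfl⟩)⟩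
    · intro x hx hfixx
      rw [hKf, Finset.mem_filter] at hx
      apply hg x hx.2
      rw [Subgroup.mem_centralizer_iff]
      intro u hu
      exact mul_inv_eq_iff_eq_mul.mp (hfixx u hu)
    · intro u hu x hx
      show MonoidAlgebra.single (u * x * u⁻¹) (1 : F) * v = MonoidAlgebra.single x (1 : F) * v
      have e : (MonoidAlgebra.single (u * x * u⁻¹) (1 : F) : MonoidAlgebra F G) =
          MonoidAlgebra.single x 1 *
            (MonoidAlgebra.single (x⁻¹ * u * x) 1 * MonoidAlgebra.single u⁻¹ 1) := by
        rw [MonoidAlgebra.single_mul_single, MonoidAlgebra.single_mul_single, mul_one, mul_one]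
        congr 1
        group
      rw [e, mul_assoc, mul_assoc, hv' u⁻¹ (Q.inv_mem hu),
        hv' (x⁻¹ * u * x) (by simpa using hQn.conj_mem u hu x⁻¹)]
  obtain ⟨N, hN⟩ := augNil p Q (MonoidAlgebra F G) hQp hpA ρ (L Khat) hT hfix
  refine ⟨N, ?_⟩
  have h1 : L (Khat ^ N) = 0 := by rw [map_pow]; exact hN
  have h2 := DFunLike.congr_fun h1 1
  rw [hL, mul_one] at h2
  exact h2

end Cfsg.Agent.Helper22
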