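import Mathlib
import Cfsg.Agent.Helper22.BlkHtLin
import Cfsg.Agent.Helper5.DetChar
import Cfsg.Agent.Helper5.GlCyc
import Cfsg.Agent.Helper24.CharLinear

/-!
helper22: faithful characters of small degree in the principal block of a perfect group.

* `detChar_diag` : the determinant of a sum of linear characters is their product.
* `faithful_small_cent` : `G` perfect, `χ ∈ B₀` faithful of degree `< 2p` ⇒ `C_G(P)` is a
  `p`-group.
-/

set_option autoImplicit false

namespace Cfsg.Agent.Helper22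

open Cfsg Cfsg.Agent.Helper24 Cfsg.Agent.Helper5

universe u

/-- determinant of a diagonal character. -/
theorem detChar_diag {C : Type u} [Group C] [Finite C] {ι : Type} [Fintype ι] [DecidableEq ι]
    (f : ι → (C →* ℂˣ)) (c : C) :
    detChar (fun y : C => ∑ i, ((f i y : ℂˣ) : ℂ)) c = ∏ i, ((f i c : ℂˣ) : ℂ) := by
  obtain ⟨ρ, hρ⟩ : ∃ ρ : Representation ℂ C (ι → ℂ),
      ∀ y, ρ y = Matrix.toLin' (Matrix.diagonal fun i => ((f i y : ℂˣ) : ℂ)) :=
    ⟨{ toFun := fun y => Matrix.toLin' (Matrix.diagonal fun i => ((f i y : ℂˣ) : ℂ))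
       map_one' := by
         have h2 : (fun i => ((f i 1 : ℂˣ) : ℂ)) = fun _ => (1 : ℂ) := by
           funext i; rw [map_one, Units.val_one]
         show Matrix.toLin' (Matrix.diagonal fun i => ((f i 1 : ℂˣ) : ℂ)) = 1
         rw [h2, Matrix.diagonal_one, Matrix.toLin'_one]
         rfl
       map_mul' := fun a b => by
         have h := Matrix.diagonal_mul_diagonal (fun i => ((f i a : ℂˣ) : ℂ))
           (fun i => ((f i b : ℂˣ) : ℂ))
         have h2 : (fun i => ((f i (a * b) : ℂˣ) : ℂ)) =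
             fun i => ((f i a : ℂˣ) : ℂ) * ((f i b : ℂˣ) : ℂ) := by
           funext i; rw [map_mul, Units.val_mul]
         show Matrix.toLin' (Matrix.diagonal fun i => ((f i (a * b) : ℂˣ) : ℂ)) =
           Matrix.toLin' (Matrix.diagonal fun i => ((f i a : ℂˣ) : ℂ)) *
             Matrix.toLin' (Matrix.diagonal fun i => ((f i b : ℂˣ) : ℂ))
         rw [h2, ← h, Matrix.toLin'_mul]
         rfl }, fun y => rfl⟩
  have e : (fun y : C => ∑ i, ((f i y : ℂˣ) : ℂ)) = ρ.character := by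
    funext y
    show _ = LinearMap.trace ℂ _ (ρ y)
    rw [hρ, Matrix.trace_toLin'_eq, Matrix.trace_diagonal]
  rw [e, detChar_eq_of_rep ρ, hρ, LinearMap.det_toLin', Matrix.det_diagonal]

/-- `G` perfect, `χ ∈ B₀` faithful of degree `< 2p` ⇒ `C_G(P)` is a `p`-group. -/
theorem faithful_small_cent {G : Type u} [Group G] [Fintype G] {p : ℕ} [Fact p.Prime]
    {M : Ideal AlgInt} (hM : IsPModular p M) (hperf : commutator G = ⊤) (P : Sylow p G)
    (χ : IrrCharacter G) (hχ : χ ∈ principalBlock M G)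
    (hfaith : ∀ g : G, (χ : G → ℂ) g = (χ : G → ℂ) 1 → g = 1)
    (hdeg : charDegree (χ : G → ℂ) < 2 * p) :
    IsPGroup p ↥(Subgroup.centralizer ((P : Subgroup G) : Set G)) := by
  classical
  haveI hMp : M.IsPrime := hM.2.1.isPrime
  have hp : p.Prime := Fact.out
  obtain ⟨hχ1, hχ0, hχdvd⟩ := irr_charDegree_spec χ
  by_contra hnot
  have hex : ∃ g : ↥(Subgroup.centralizer ((P : Subgroup G) : Set G)),
      ∀ k : ℕ, g ^ p ^ k ≠ 1 := by
    by_contra hcon
    push Not at hcon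
    exact hnot (fun g => hcon g)
  obtain ⟨g, hg⟩ := hex
  obtain ⟨k, m', hm', hkm⟩ := Nat.exists_eq_pow_mul_and_not_dvd
    (orderOf_pos (g : G)).ne' p hp.ne_one
  obtain ⟨x, hxdef⟩ : ∃ x : G, x = (g : G) ^ p ^ k := ⟨_, rfl⟩
  have hxC : x ∈ Subgroup.centralizer ((P : Subgroup G) : Set G) := by
    rw [hxdef]
    exact Subgroup.pow_mem _ g.2 _
  have hx1 : x ≠ 1 := by
    intro h
    refine hg k (Subtype.ext ?_)
    rw [hxdef] at h
    simpa using h
  have hxm : x ^ m' = 1 := by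
    rw [hxdef, ← pow_mul, ← hkm]
    exact pow_orderOf_eq_one _
  have hxreg : ¬ p ∣ orderOf x := fun h => hm' (h.trans (orderOf_dvd_of_pow_eq_one hxm))
  have hCle : Subgroup.zpowers x ≤ Subgroup.centralizer ((P : Subgroup G) : Set G) :=
    (Subgroup.zpowers_le).mpr hxC
  have hidx : ∀ c ∈ Subgroup.zpowers x,
      ¬ p ∣ (Subgroup.centralizer ({c} : Set G)).index := by
    intro c hc hdvd
    have hPle : (P : Subgroup G) ≤ Subgroup.centralizer ({c} : Set G) := by
      intro y hy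
      rw [Subgroup.mem_centralizer_iff]
      intro z hz
      rw [Set.mem_singleton_iff.mp hz]
      have h1 := hCle hc
      rw [Subgroup.mem_centralizer_iff] at h1
      exact (h1 y hy).symm
    exact P.not_dvd_index (hdvd.trans (Subgroup.index_dvd_of_le hPle))
  have hcong : ∀ c ∈ Subgroup.zpowers x,
      MemLocalIdeal M ((χ : G → ℂ) 1 - (χ : G → ℂ) c) := by
    intro c hc
    have hsb : MemLocalIdeal M (centralChar (fun _ : G => (1 : ℂ)) c -
        centralChar (χ : G → ℂ) c) := hχ c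
    have hidx0 : (Subgroup.centralizer ({c} : Set G)).index ≠ 0 :=
      Subgroup.index_ne_zero_of_finite
    have hR : MemLocalRing M (((charDegree (χ : G → ℂ) : ℕ) : ℂ) /
        ((Subgroup.centralizer ({c} : Set G)).index : ℂ)) :=
      (nat_div_mem hM hχ0 hidx0).1.mpr (by
        rw [Nat.factorization_eq_zero_of_not_dvd (hidx c hc)]; exact Nat.zero_le _)
    have e : (χ : G → ℂ) 1 - (χ : G → ℂ) c = (((charDegree (χ : G → ℂ) : ℕ) : ℂ) /
        ((Subgroup.centralizer ({c} : Set G)).index : ℂ)) *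
        (centralChar (fun _ : G => (1 : ℂ)) c - centralChar (χ : G → ℂ) c) := by
      have hi0 : ((Subgroup.centralizer ({c} : Set G)).index : ℂ) ≠ 0 :=
        Nat.cast_ne_zero.mpr hidx0
      have hd0 : ((charDegree (χ : G → ℂ) : ℕ) : ℂ) ≠ 0 := Nat.cast_ne_zero.mpr hχ0
      unfold centralChar
      rw [hχ1]
      field_simp
    rw [e]
    exact memLocalIdeal_mul_left hR hsb
  haveI : Fintype ↥(Subgroup.zpowers x) := Fintype.ofFinite _
  have hcommC : ∀ a b : ↥(Subgroup.zpowers x), a * b = b * a :=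
    comm_of_zpowers (Subgroup.zpowers x) x rfl
  have hCcard : ¬ p ∣ Nat.card ↥(Subgroup.zpowers x) := by
    rw [Nat.card_zpowers]; exact hxreg
  have hχC : IsCharacter ↥(Subgroup.zpowers x)
      (fun c : ↥(Subgroup.zpowers x) => (χ : G → ℂ) c) :=
    isCharacter_restrict _ (isCharacter_of_isIrrCharacter χ.2)
  have hexp := classFunction_eq_sum_irr _ (isCharacter_isClassFunction hχC)
  have hnat : ∀ μ : IrrCharacter ↥(Subgroup.zpowers x), ∃ a : ℕ,
      classInner (fun c : ↥(Subgroup.zpowers x) => (χ : G → ℂ) c)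
        (μ : ↥(Subgroup.zpowers x) → ℂ) = (a : ℂ) :=
    fun μ => classInner_isCharacter_natCast hχC (isCharacter_of_isIrrCharacter μ.2)
  choose a ha using hnat
  have hval : ∀ c : ↥(Subgroup.zpowers x), (χ : G → ℂ) (c : G) =
      ∑ μ : IrrCharacter ↥(Subgroup.zpowers x),
        (a μ : ℂ) * (μ : ↥(Subgroup.zpowers x) → ℂ) c := by
    intro c
    have h2 := congrFun hexp c
    simp only [Finset.sum_apply, Pi.smul_apply, smul_eq_mul] at h2
    exact h2.trans (Finset.sum_congr rfl fun μ _ => by rw [ha μ])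
  have hμ1 : ∀ μ : IrrCharacter ↥(Subgroup.zpowers x),
      (μ : ↥(Subgroup.zpowers x) → ℂ) 1 = 1 := fun μ => irr_one_of_comm hcommC μ
  have hsum : charDegree (χ : G → ℂ) = ∑ μ : IrrCharacter ↥(Subgroup.zpowers x), a μ := by
    have h3 : ((charDegree (χ : G → ℂ) : ℕ) : ℂ) =
        ((∑ μ : IrrCharacter ↥(Subgroup.zpowers x), a μ : ℕ) : ℂ) := by
      rw [← hχ1, Nat.cast_sum]
      have h2 : (χ : G → ℂ) 1 = ∑ μ : IrrCharacter ↥(Subgroup.zpowers x),
          (a μ : ℂ) * (μ : ↥(Subgroup.zpowers x) → ℂ) 1 := hval 1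
      rw [h2]
      exact Finset.sum_congr rfl fun μ _ => by rw [hμ1 μ, mul_one]
    exact_mod_cast h3
  obtain ⟨τ, hτ⟩ : ∃ τ : IrrCharacter ↥(Subgroup.zpowers x),
      ∀ c, (τ : ↥(Subgroup.zpowers x) → ℂ) c = 1 :=
    ⟨⟨fun _ => 1, Cfsg.Agent.Helper24.isIrrCharacter_one⟩, fun _ => rfl⟩
  have hdiv : ∀ μ : IrrCharacter ↥(Subgroup.zpowers x), μ ≠ τ → p ∣ a μ := by
    intro μ hμ
    by_contra hnd
    have hcop : Nat.Coprime (a μ) p :=
      (Nat.Coprime.symm ((Nat.Prime.coprime_iff_not_dvd hp).mpr hnd))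
    apply not_memLocalIdeal_natCast hM hcop
    rw [← ha μ]
    have horth : classInner (τ : ↥(Subgroup.zpowers x) → ℂ)
        (μ : ↥(Subgroup.zpowers x) → ℂ) = 0 := by
      rw [irr_orthonormal, if_neg (Ne.symm hμ)]
    have hC0 : (Nat.card ↥(Subgroup.zpowers x) : ℂ)⁻¹ ≠ 0 :=
      inv_ne_zero (Nat.cast_ne_zero.mpr Nat.card_pos.ne')
    have h6 : ∑ c : ↥(Subgroup.zpowers x),
        (1 : ℂ) * (starRingEnd ℂ) ((μ : ↥(Subgroup.zpowers x) → ℂ) c) = 0 := by
      unfold classInner at horth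
      have h7 := (mul_eq_zero.mp horth).resolve_left hC0
      rw [← h7]
      exact Finset.sum_congr rfl fun c _ => by rw [hτ c]
    have h5 : ∑ c : ↥(Subgroup.zpowers x), ((χ : G → ℂ) c - (χ : G → ℂ) 1) *
          (starRingEnd ℂ) ((μ : ↥(Subgroup.zpowers x) → ℂ) c) =
        ∑ c : ↥(Subgroup.zpowers x), (χ : G → ℂ) c *
          (starRingEnd ℂ) ((μ : ↥(Subgroup.zpowers x) → ℂ) c) -
        (χ : G → ℂ) 1 * ∑ c : ↥(Subgroup.zpowers x),
          (1 : ℂ) * (starRingEnd ℂ) ((μ : ↥(Subgroup.zpowers x) → ℂ) c) := by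
      rw [Finset.mul_sum, ← Finset.sum_sub_distrib]
      exact Finset.sum_congr rfl fun c _ => by ring
    have hsplit : classInner (fun c : ↥(Subgroup.zpowers x) => (χ : G → ℂ) c)
        (μ : ↥(Subgroup.zpowers x) → ℂ) = (Nat.card ↥(Subgroup.zpowers x) : ℂ)⁻¹ *
        ∑ c : ↥(Subgroup.zpowers x), ((χ : G → ℂ) c - (χ : G → ℂ) 1) *
          (starRingEnd ℂ) ((μ : ↥(Subgroup.zpowers x) → ℂ) c) := by
      unfold classInner
      rw [h5, h6, mul_zero, sub_zero]
    rw [hsplit]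
    refine memLocalIdeal_mul_left (natCast_inv_memLocalRing hM hCcard) ?_
    refine memLocalIdeal_sum _ _ fun c _ => ?_
    rw [mul_comm]
    refine memLocalIdeal_mul_left
      (integral_mem_locRing (map_isIntegral_int (starRingEnd ℂ) (irr_isIntegral μ c))) ?_
    have h8 := hcong (c : G) c.2
    have e : (χ : G → ℂ) c - (χ : G → ℂ) 1 = -((χ : G → ℂ) 1 - (χ : G → ℂ) c) := by ring
    rw [e]
    exact memLocalIdeal_neg h8
  rw [hsum] at hdeg
  by_cases hall : ∀ μ : IrrCharacter ↥(Subgroup.zpowers x), μ ≠ τ → a μ = 0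
  · apply hx1
    apply hfaith
    have hred : ∀ c : ↥(Subgroup.zpowers x), (χ : G → ℂ) c = (a τ : ℂ) := by
      intro c
      rw [hval c, Finset.sum_eq_single τ
        (fun μ _ hμ => by rw [hall μ hμ, Nat.cast_zero, zero_mul])
        (fun h => absurd (Finset.mem_univ τ) h), hτ c, mul_one]
    exact (hred ⟨x, Subgroup.mem_zpowers x⟩).trans (hred 1).symm
  · push Not at hall
    obtain ⟨μ₀, hμ₀τ, hμ₀a⟩ := hall
    have hpμ₀ := hdiv μ₀ hμ₀τ
    have hothers : ∀ μ : IrrCharacter ↥(Subgroup.zpowers x), μ ≠ τ → μ ≠ μ₀ → a μ = 0 := by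
      intro μ hμτ hμμ₀
      by_contra hne
      have h1 : p ≤ a μ := Nat.le_of_dvd (Nat.pos_of_ne_zero hne) (hdiv μ hμτ)
      have h2 : p ≤ a μ₀ := Nat.le_of_dvd (Nat.pos_of_ne_zero hμ₀a) hpμ₀
      have h4 : ∑ ν ∈ ({μ, μ₀} : Finset (IrrCharacter ↥(Subgroup.zpowers x))), a ν ≤
          ∑ ν : IrrCharacter ↥(Subgroup.zpowers x), a ν :=
        Finset.sum_le_sum_of_subset (Finset.subset_univ _)
      rw [Finset.sum_pair hμμ₀] at h4
      omega
    have hle : a μ₀ ≤ ∑ ν : IrrCharacter ↥(Subgroup.zpowers x), a ν :=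
      Finset.single_le_sum (fun _ _ => Nat.zero_le _) (Finset.mem_univ μ₀)
    obtain ⟨q, hq⟩ := hpμ₀
    have hq1 : q = 1 := by
      have hq0 : q ≠ 0 := by
        rintro rfl
        exact hμ₀a (by rw [hq, mul_zero])
      have hlt : p * q < p * 2 := by
        rw [← hq]; omega
      have := Nat.lt_of_mul_lt_mul_left hlt
      omega
    rw [hq1, mul_one] at hq
    have hform : ∀ c : ↥(Subgroup.zpowers x), (χ : G → ℂ) c =
        (a τ : ℂ) + (p : ℂ) * (μ₀ : ↥(Subgroup.zpowers x) → ℂ) c := by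
      intro c
      rw [hval c, Finset.sum_eq_add τ μ₀ (Ne.symm hμ₀τ)
        (fun μ _ hμ => by rw [hothers μ hμ.1 hμ.2, Nat.cast_zero, zero_mul])
        (fun h => absurd (Finset.mem_univ τ) h) (fun h => absurd (Finset.mem_univ μ₀) h),
        hτ c, mul_one, hq]
    obtain ⟨φ, hφ⟩ := linChar_exists_hom (isCharacter_of_isIrrCharacter μ₀.2) (hμ1 μ₀)
    have hfun : (fun c : ↥(Subgroup.zpowers x) => (χ : G → ℂ) c) =
        fun c : ↥(Subgroup.zpowers x) => ∑ i : Fin (a τ) ⊕ Fin p,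
          (((Sum.elim (fun _ => (1 : ↥(Subgroup.zpowers x) →* ℂˣ)) (fun _ => φ) i) c : ℂˣ) : ℂ)
        := by
      funext c
      rw [hform c, Fintype.sum_sum_type]
      simp only [Sum.elim_inl, Sum.elim_inr, MonoidHom.one_apply, Units.val_one,
        Finset.sum_const, Finset.card_univ, Fintype.card_fin, nsmul_eq_mul, mul_one, hφ]
    have hdet1 : detChar (fun c : ↥(Subgroup.zpowers x) => (χ : G → ℂ) c)
        ⟨x, Subgroup.mem_zpowers x⟩ = ((φ ⟨x, Subgroup.mem_zpowers x⟩ : ℂˣ) : ℂ) ^ p := by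
      rw [hfun, detChar_diag, Fintype.prod_sum_type]
      simp only [Sum.elim_inl, Sum.elim_inr, MonoidHom.one_apply, Units.val_one,
        Finset.prod_const, Finset.card_univ, Fintype.card_fin, one_pow, one_mul]
    have hdet2 : detChar (fun c : ↥(Subgroup.zpowers x) => (χ : G → ℂ) c)
        ⟨x, Subgroup.mem_zpowers x⟩ = 1 := by
      rw [detChar_res (Subgroup.zpowers x) (isCharacter_of_isIrrCharacter χ.2)]
      obtain ⟨δ, hδ⟩ := detChar_exists_hom (χ : G → ℂ)
      show detChar (χ : G → ℂ) x = 1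
      rw [← hδ]
      have hker : δ.ker = ⊤ := by
        rw [eq_top_iff, ← hperf]
        exact Abelianization.commutator_subset_ker δ
      have h9 : δ x = 1 := MonoidHom.mem_ker.mp (by rw [hker]; exact Subgroup.mem_top x)
      rw [h9]
      rfl
    have hp1 : (φ ⟨x, Subgroup.mem_zpowers x⟩) ^ p = 1 := by
      apply Units.ext
      rw [Units.val_pow_eq_pow_val, Units.val_one, ← hdet1, hdet2]
    have hm1 : (φ ⟨x, Subgroup.mem_zpowers x⟩) ^ orderOf x = 1 := by
      rw [← map_pow]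
      have h10 : (⟨x, Subgroup.mem_zpowers x⟩ : ↥(Subgroup.zpowers x)) ^ orderOf x = 1 :=
        Subtype.ext (by simp [pow_orderOf_eq_one])
      rw [h10, map_one]
    have hφ1 : φ ⟨x, Subgroup.mem_zpowers x⟩ = 1 := by
      have h := pow_gcd_eq_one.mpr ⟨hp1, hm1⟩
      rw [show Nat.gcd p (orderOf x) = 1 from (Nat.Prime.coprime_iff_not_dvd hp).mpr hxreg,
        pow_one] at h
      exact h
    apply hx1
    apply hfaith
    have h1 := hform ⟨x, Subgroup.mem_zpowers x⟩
    have h2 := hform 1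
    rw [← hφ, hφ1, Units.val_one] at h1
    rw [hμ1 μ₀] at h2
    exact h1.trans h2.symm

end Cfsg.Agent.Helper22
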