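import Mathlib
import Cfsg.Agent.Helper22.BlkHtLin
import Cfsg.Agent.Helper22.BlkNil
import Cfsg.Agent.Helper22.BlkCover
import Cfsg.Agent.Helper22.SelfCent3
import Cfsg.Agent.Helper5.BlkFong
import Cfsg.Agent.Helper5.KnGen
import Cfsg.Agent.Helper5.BlkRoot
import Cfsg.Agent.Helper5.BlkOrth2
import Cfsg.Agent.Helper5.BlkDom2
import Cfsg.Agent.Helper24.CharProd
import Cfsg.Agent.Helper23.PSolv

/-!
helper22: Fong's theorem on the characters of a `p`-solvable group lying over an invariant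
character of `O_{p'}(G)`.

* `fong_block_main` : abstract form (normal `p'`-subgroup `N ≤ L ⊴ G`, `L/N` a `p`-group that
  is self-centralizing modulo `N` on `p`-regular elements): `Irr(G | θ)` is a single block of
  full defect.
* `fong_block_psolv` : the `p`-solvable case, `N = O_{p'}(G)`.
-/

set_option autoImplicit false

namespace Cfsg.Agent.Helper22

open Cfsg Cfsg.Agent.Helper24 Cfsg.Agent.Helper5

universe u

theorem fong_block_main {G : Type u} [Group G] [Fintype G] {p : ℕ} [Fact p.Prime]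
    {M : Ideal AlgInt} (hM : IsPModular p M) (N : Subgroup G) [hN : N.Normal] [Fintype N]
    (hNp : ¬ p ∣ Nat.card N) (L : Subgroup G) [hL : L.Normal] [Fintype L] (hNL : N ≤ L)
    (hLcard : ∃ j : ℕ, Nat.card L = Nat.card N * p ^ j)
    (hLp : ∀ y ∈ L, ∃ k : ℕ, y ^ p ^ k ∈ N)
    (hHH : ∀ x : G, ¬ p ∣ orderOf x → (∀ y ∈ L, x * y * x⁻¹ * y⁻¹ ∈ N) → x ∈ N)
    (θ : IrrCharacter N)
    (hinv : ∀ (g : G) (n : N),
      (θ : N → ℂ) ⟨g * n * g⁻¹, hN.conj_mem n n.2 g⟩ = (θ : N → ℂ) n) :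
    ∃ B : Set (IrrCharacter G), IsPBlock M B ∧
      (∀ χ : IrrCharacter G, χ ∈ B ↔
        classInner (fun n : N => (χ : G → ℂ) n) (θ : N → ℂ) ≠ 0) ∧
      (∀ P : Sylow p G, IsDefectGroup p M B (P : Subgroup G)) ∧
      ∀ D : Subgroup G, IsDefectGroup p M B D → ∃ P : Sylow p G, D = (P : Subgroup G) := by
  classical
  haveI hMp : M.IsPrime := hM.2.1.isPrime
  have hp : p.Prime := Fact.out
  -- Step 0
  have htw : ∀ g : G, twIrr N g θ = θ := fun g => Subtype.ext (funext fun n => hinv g n)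
  have hbθ : blockOf M (θ : N → ℂ) = {θ} := by
    refine (defect_zero_iff hM θ).mp ?_
    intro hdvd
    exact hNp (hdvd.trans (Nat.div_dvd_of_dvd (irr_charDegree_spec θ).2.2))
  have hθeq : ∀ ψ : IrrCharacter N, SameBlock M (θ : N → ℂ) (ψ : N → ℂ) → ψ = θ := by
    intro ψ h
    have h1 : ψ ∈ blockOf M (θ : N → ℂ) := h
    rw [hbθ] at h1
    exact h1
  have htwinv : ∀ (x : G) (ψ : IrrCharacter N), twIrr N x ψ = θ → ψ = θ := by
    intro x ψ h
    have h1 : twIrr N x⁻¹ (twIrr N x ψ) = ψ := by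
      rw [← twIrr_mul, mul_inv_cancel, twIrr_one]
    rw [← h1, h, htw]
  have hst : ∀ (x : G) (ψ : IrrCharacter N),
      twIrr N x ψ ∈ blockOf M (θ : N → ℂ) ↔ ψ ∈ blockOf M (θ : N → ℂ) := by
    intro x ψ
    rw [hbθ]
    constructor
    · intro h
      exact htwinv x ψ h
    · intro h
      have h' : ψ = θ := h
      rw [h']
      exact htw x
  -- Step 1
  have hcovmem : ∀ χ χ' : IrrCharacter G, SameBlock M (χ : G → ℂ) (χ' : G → ℂ) →
      classInner (fun n : N => (χ : G → ℂ) n) (θ : N → ℂ) ≠ 0 →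
      classInner (fun n : N => (χ' : G → ℂ) n) (θ : N → ℂ) ≠ 0 := by
    intro χ χ' hsame hχ
    obtain ⟨ψ, hψ⟩ := exists_constituent_res N χ'
    obtain ⟨g, hg⟩ := cover_key N χ χ' (fun n => hsame (n : G)) θ θ ψ (sameBlock_refl _) hχ hψ
    have h1 := htwinv g ψ (hθeq _ hg)
    rw [h1] at hψ
    exact hψ
  -- Step 2
  have hres : ∀ χ : IrrCharacter G,
      classInner (fun n : N => (χ : G → ℂ) n) (θ : N → ℂ) ≠ 0 →
      ∀ ψ : IrrCharacter N, ψ ≠ θ →
        classInner (fun n : N => (χ : G → ℂ) n) (ψ : N → ℂ) = 0 := by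
    intro χ hχ ψ hψ
    have hC : {φ : N → ℂ | ∃ g : G, φ = fun n : N =>
        (θ : N → ℂ) ⟨g * n * g⁻¹, hN.conj_mem n n.2 g⟩} = {(θ : N → ℂ)} := by
      ext φ
      constructor
      · rintro ⟨g, rfl⟩
        exact funext (hinv g)
      · intro h
        exact ⟨1, by rw [Set.mem_singleton_iff.mp h]; exact (funext (hinv 1)).symm⟩
    have h := clifford_restrict N hN (χ : G → ℂ) χ.2 (θ : N → ℂ) θ.2 hχ
    rw [hC, finsum_mem_singleton] at h
    rw [h, classInner_smul_left, irr_orthonormal, if_neg (Ne.symm hψ), mul_zero]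
  have hL1 : ∀ χ : IrrCharacter G,
      classInner (fun n : N => (χ : G → ℂ) n) (θ : N → ℂ) ≠ 0 →
      ∀ ξ : IrrCharacter L, classInner (fun h : L => (χ : G → ℂ) h) (ξ : L → ℂ) ≠ 0 →
      ∀ n : N, (ξ : L → ℂ) (Subgroup.inclusion hNL n) =
        ((ξ : L → ℂ) 1 / (θ : N → ℂ) 1) * (θ : N → ℂ) n := by
    intro χ hχ ξ hξ
    have hcomp : IsCharacter N (fun n : N => (ξ : L → ℂ) (Subgroup.inclusion hNL n)) := by
      obtain ⟨m, ρ, hρ⟩ := isCharacter_of_isIrrCharacter ξ.2
      refine ⟨m, MonoidHom.comp ρ (Subgroup.inclusion hNL), ?_⟩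
      rw [← hρ]
      rfl
    have hexp := classFunction_eq_sum_irr _ (isCharacter_isClassFunction hcomp)
    have hzero : ∀ ψ : IrrCharacter N, ψ ≠ θ →
        classInner (fun n : N => (ξ : L → ℂ) (Subgroup.inclusion hNL n)) (ψ : N → ℂ) = 0 := by
      intro ψ hψ
      by_contra hne
      exact constituent_res_trans' L N hNL χ ξ ψ hne hξ (hres χ hχ ψ hψ)
    have hval : ∀ n : N, (ξ : L → ℂ) (Subgroup.inclusion hNL n) =
        classInner (fun n : N => (ξ : L → ℂ) (Subgroup.inclusion hNL n)) (θ : N → ℂ) *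
          (θ : N → ℂ) n := by
      intro n
      have h2 := congrFun hexp n
      simp only [Finset.sum_apply, Pi.smul_apply, smul_eq_mul] at h2
      exact h2.trans (Finset.sum_eq_single θ (fun ψ _ hψ => by rw [hzero ψ hψ, zero_mul])
        (fun h => absurd (Finset.mem_univ θ) h))
    intro n
    have h1 := hval 1
    rw [map_one] at h1
    have hθ1 := Cfsg.Agent.Helper5.irr_one_ne_zero θ
    have e : classInner (fun n : N => (ξ : L → ℂ) (Subgroup.inclusion hNL n)) (θ : N → ℂ) =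
        (ξ : L → ℂ) 1 / (θ : N → ℂ) 1 := by
      rw [eq_div_iff hθ1]
      exact h1.symm
    rw [hval n, e]
  -- Step 3
  have hregL : ∀ y : L, ¬ p ∣ orderOf y → (y : G) ∈ N := by
    intro y hy
    obtain ⟨k, hk⟩ := hLp (y : G) y.2
    have hcop : Nat.Coprime (p ^ k) (orderOf (y : G)) := by
      rw [Subgroup.orderOf_coe]
      exact Nat.Coprime.pow_left k ((Nat.Prime.coprime_iff_not_dvd hp).mpr hy)
    obtain ⟨m, hm⟩ := exists_pow_eq_self_of_coprime hcop
    rw [← hm]
    exact Subgroup.pow_mem _ hk m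
  have hsameL : ∀ ξ₁ ξ₂ : IrrCharacter L,
      (∀ n : N, (ξ₁ : L → ℂ) (Subgroup.inclusion hNL n) =
        ((ξ₁ : L → ℂ) 1 / (θ : N → ℂ) 1) * (θ : N → ℂ) n) →
      (∀ n : N, (ξ₂ : L → ℂ) (Subgroup.inclusion hNL n) =
        ((ξ₂ : L → ℂ) 1 / (θ : N → ℂ) 1) * (θ : N → ℂ) n) →
      SameBlock M (ξ₁ : L → ℂ) (ξ₂ : L → ℂ) := by
    intro ξ₁ ξ₂ h₁ h₂
    refine sameBlock_of_regular hM ξ₁ ξ₂ fun y hy => ?_
    have hyN := hregL y hy
    have e1 : y = Subgroup.inclusion hNL ⟨(y : G), hyN⟩ := Subtype.ext rfl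
    have hc : ∀ ξ : IrrCharacter L, (∀ n : N, (ξ : L → ℂ) (Subgroup.inclusion hNL n) =
        ((ξ : L → ℂ) 1 / (θ : N → ℂ) 1) * (θ : N → ℂ) n) →
        centralChar (ξ : L → ℂ) y = ((Subgroup.centralizer ({y} : Set L)).index : ℂ) *
          (θ : N → ℂ) ⟨(y : G), hyN⟩ / (θ : N → ℂ) 1 := by
      intro ξ h
      have hξ1 := Cfsg.Agent.Helper5.irr_one_ne_zero ξ
      have hθ1 := Cfsg.Agent.Helper5.irr_one_ne_zero θ
      have h3 : (ξ : L → ℂ) y =
          ((ξ : L → ℂ) 1 / (θ : N → ℂ) 1) * (θ : N → ℂ) ⟨(y : G), hyN⟩ := by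
        have h4 := h ⟨(y : G), hyN⟩
        rw [← e1] at h4
        exact h4
      unfold centralChar
      rw [h3]
      field_simp
    rw [hc ξ₁ h₁, hc ξ₂ h₂, sub_self]
    exact memLocalIdeal_zero hMp.ne_top
  -- Step 4
  have hidxN : N.index.factorization p = (Nat.card G).factorization p := by
    have hmul := Subgroup.card_mul_index N
    have hi0 : N.index ≠ 0 := Subgroup.index_ne_zero_of_finite
    have hN0 : Nat.card N ≠ 0 := Nat.card_pos.ne'
    rw [← hmul, Nat.factorization_mul hN0 hi0, Finsupp.add_apply,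
      Nat.factorization_eq_zero_of_not_dvd hNp, zero_add]
  obtain ⟨χ', ⟨θ', hθ'mem, hθ'c⟩, hdef⟩ := exists_cover_defect_ge N hM θ hst
  have hθ'eq : θ' = θ := by
    rw [hbθ] at hθ'mem
    exact hθ'mem
  rw [hθ'eq] at hθ'c
  obtain ⟨χs, hχsB, hχsp⟩ : ∃ χs : IrrCharacter G,
      SameBlock M (χ' : G → ℂ) (χs : G → ℂ) ∧
      (charDegree (χs : G → ℂ)).factorization p = 0 := by
    have hne : ((fun ψ : IrrCharacter G => (charDegree (ψ : G → ℂ)).factorization p) ''
        blockOf M (χ' : G → ℂ)).Nonempty := ⟨_, χ', sameBlock_refl _, rfl⟩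
    obtain ⟨ψ, hψB, hψ⟩ := Nat.sInf_mem hne
    refine ⟨ψ, hψB, ?_⟩
    have hψ' : (charDegree (ψ : G → ℂ)).factorization p =
        sInf ((fun ψ : IrrCharacter G => (charDegree (ψ : G → ℂ)).factorization p) ''
          blockOf M (χ' : G → ℂ)) := hψ
    obtain ⟨-, hψ0, hψdvd⟩ := irr_charDegree_spec ψ
    have hle' : (charDegree (ψ : G → ℂ)).factorization p ≤ (Nat.card G).factorization p :=
      (Nat.factorization_le_iff_dvd hψ0 Nat.card_pos.ne').mpr hψdvd p
    unfold blockDefect at hdef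
    rw [hidxN] at hdef
    omega
  have hχsθ : classInner (fun n : N => (χs : G → ℂ) n) (θ : N → ℂ) ≠ 0 :=
    hcovmem χ' χs hχsB hθ'c
  have hχsp' : ¬ p ∣ charDegree (χs : G → ℂ) := by
    intro hdvd
    have h0 := (irr_charDegree_spec χs).2.1
    rcases (Nat.factorization_eq_zero_iff _ p).mp hχsp with h | h | h
    · exact h hp
    · exact h hdvd
    · exact h0 h
  -- Step 5
  have hKC : ∀ χ : IrrCharacter G,
      classInner (fun n : N => (χ : G → ℂ) n) (θ : N → ℂ) ≠ 0 →
      ∀ g : G, ¬ p ∣ orderOf g → g ∉ N → MemLocalIdeal M (centralChar (χ : G → ℂ) g) := by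
    intro χ hχ g hg hgN
    by_contra hnot
    obtain ⟨ξ, hξ⟩ := exists_constituent_res L χ
    obtain ⟨D, hD, -, hDL⟩ := knorr_general L hM ξ χ
      ⟨χ, sameBlock_refl _, ξ, sameBlock_refl _, hξ⟩
    obtain ⟨x, hconj, hxD, -⟩ := conj_centralizes_defect hM χ D hD g hnot
    have hcfL : IsClassFunction L (fun h : L => (χs : G → ℂ) h) := by
      intro y h
      show (χs : G → ℂ) ((h : G) * y * (h : G)⁻¹) = (χs : G → ℂ) y
      exact irr_conj χs _ _
    have hexpL := classFunction_eq_sum_irr _ hcfL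
    have hnatL : ∀ η : IrrCharacter L, ∃ a : ℕ,
        classInner (fun h : L => (χs : G → ℂ) h) (η : L → ℂ) = (a : ℂ) :=
      fun η => classInner_isCharacter_natCast
        (isCharacter_restrict L (isCharacter_of_isIrrCharacter χs.2))
        (isCharacter_of_isIrrCharacter η.2)
    choose aL haL using hnatL
    obtain ⟨η, hηa, hηp⟩ : ∃ η : IrrCharacter L, aL η ≠ 0 ∧
        ¬ p ∣ charDegree (η : L → ℂ) := by
      by_contra hcon
      push Not at hcon
      apply hχsp'
      have h3 : ((charDegree (χs : G → ℂ) : ℕ) : ℂ) =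
          ((∑ η : IrrCharacter L, aL η * charDegree (η : L → ℂ) : ℕ) : ℂ) := by
        rw [← (irr_charDegree_spec χs).1, Nat.cast_sum]
        have h2 := congrFun hexpL 1
        simp only [Finset.sum_apply, Pi.smul_apply, smul_eq_mul] at h2
        have h2' : (χs : G → ℂ) 1 = ∑ η : IrrCharacter L,
            classInner (fun h : L => (χs : G → ℂ) h) (η : L → ℂ) * (η : L → ℂ) 1 := h2
        rw [h2']
        refine Finset.sum_congr rfl fun η _ => ?_
        rw [haL η, (irr_charDegree_spec η).1, Nat.cast_mul]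
      have h4 : charDegree (χs : G → ℂ) =
          ∑ η : IrrCharacter L, aL η * charDegree (η : L → ℂ) := by exact_mod_cast h3
      rw [h4]
      refine Finset.dvd_sum fun η _ => ?_
      by_cases hn : aL η = 0
      · rw [hn, zero_mul]
        exact dvd_zero p
      · exact Dvd.dvd.mul_left (hcon η hn) _
    have hOverξ := hL1 χ hχ ξ hξ
    have hOverη := hL1 χs hχsθ η (by rw [haL η]; exact Nat.cast_ne_zero.mpr hηa)
    have hsame := hsameL ξ η hOverξ hOverη
    have hdefL : blockDefect p (blockOf M (ξ : L → ℂ)) = (Nat.card L).factorization p := by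
      unfold blockDefect
      have hle : sInf ((fun ψ : IrrCharacter L => (charDegree (ψ : L → ℂ)).factorization p) ''
          blockOf M (ξ : L → ℂ)) ≤ (charDegree (η : L → ℂ)).factorization p :=
        Nat.sInf_le ⟨η, hsame, rfl⟩
      rw [Nat.factorization_eq_zero_of_not_dvd hηp] at hle
      omega
    have hcardE := card_defect_group hM ξ _ hDL
    rw [hdefL] at hcardE
    obtain ⟨j, hj⟩ := hLcard
    have hfacL : (Nat.card L).factorization p = j := by
      have h1 : (p ^ j).factorization p = j := by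
        rw [Nat.Prime.factorization_pow hp, Finsupp.single_eq_same]
      rw [hj, Nat.factorization_mul Nat.card_pos.ne' (pow_ne_zero j hp.ne_zero),
        Finsupp.add_apply, Nat.factorization_eq_zero_of_not_dvd hNp, zero_add, h1]
    have hEcard : Nat.card ↥(D ⊓ L) = p ^ j := by
      rw [← hfacL, ← hcardE]
      exact (Nat.card_congr
        (Subgroup.subgroupOfEquivOfLe (inf_le_right : D ⊓ L ≤ L)).toEquiv).symm
    obtain ⟨T, hT⟩ : ∃ T : Subgroup G, ∀ y : G, y ∈ T ↔ y ∈ L ∧ x * y * x⁻¹ * y⁻¹ ∈ N := by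
      refine ⟨{ carrier := {y | y ∈ L ∧ x * y * x⁻¹ * y⁻¹ ∈ N}
                mul_mem' := ?_
                one_mem' := ?_
                inv_mem' := ?_ }, fun y => Iff.rfl⟩
      · rintro a b ⟨ha, ha'⟩ ⟨hb, hb'⟩
        refine ⟨L.mul_mem ha hb, ?_⟩
        have e : x * (a * b) * x⁻¹ * (a * b)⁻¹ =
            (x * a * x⁻¹ * a⁻¹) * (a * (x * b * x⁻¹ * b⁻¹) * a⁻¹) := by group
        rw [e]
        exact N.mul_mem ha' (hN.conj_mem _ hb' a)
      · refine ⟨L.one_mem, ?_⟩
        have e : x * 1 * x⁻¹ * (1 : G)⁻¹ = 1 := by group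
        rw [e]
        exact N.one_mem
      · rintro a ⟨ha, ha'⟩
        refine ⟨L.inv_mem ha, ?_⟩
        have e : x * a⁻¹ * x⁻¹ * a⁻¹⁻¹ = a⁻¹ * (x * a * x⁻¹ * a⁻¹)⁻¹ * a⁻¹⁻¹ := by group
        rw [e]
        exact hN.conj_mem _ (N.inv_mem ha') a⁻¹
    have hTL : T ≤ L := fun y hy => ((hT y).mp hy).1
    have hNT : N ≤ T := fun n hn => (hT n).mpr
      ⟨hNL hn, N.mul_mem (hN.conj_mem n hn x) (N.inv_mem hn)⟩
    have hET : D ⊓ L ≤ T := by
      intro e he
      have he' := Subgroup.mem_inf.mp he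
      refine (hT e).mpr ⟨he'.2, ?_⟩
      have hc := (Subgroup.mem_centralizer_iff.mp hxD) e he'.1
      have e1 : x * e * x⁻¹ * e⁻¹ = 1 := by
        rw [← hc]; group
      rw [e1]
      exact N.one_mem
    have hcardT : Nat.card L ∣ Nat.card T := by
      rw [hj]
      refine Nat.Coprime.mul_dvd_of_dvd_of_dvd ?_ (Subgroup.card_dvd_of_le hNT) ?_
      · exact Nat.Coprime.pow_right j
          (Nat.Coprime.symm ((Nat.Prime.coprime_iff_not_dvd hp).mpr hNp))
      · rw [← hEcard]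
        exact Subgroup.card_dvd_of_le hET
    have hTeq : T = L := Subgroup.eq_of_le_of_card_ge hTL
      (Nat.le_of_dvd Nat.card_pos hcardT)
    obtain ⟨c, hc⟩ := isConj_iff.mp hconj
    have hxreg : ¬ p ∣ orderOf x := by
      rw [← hc]
      have h5 : orderOf (c * g * c⁻¹) = orderOf g := MulEquiv.orderOf_eq (MulAut.conj c) g
      rw [h5]
      exact hg
    have hxN : x ∈ N := hHH x hxreg (fun y hy => by
      have hyT : y ∈ T := by rw [hTeq]; exact hy
      exact ((hT y).mp hyT).2)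
    apply hgN
    have e : g = c⁻¹ * x * c⁻¹⁻¹ := by rw [← hc]; group
    rw [e]
    exact hN.conj_mem x hxN c⁻¹
  -- Step 7 preparations
  have hdefB : blockDefect p (blockOf M (χs : G → ℂ)) = (Nat.card G).factorization p := by
    unfold blockDefect
    have hle : sInf ((fun ψ : IrrCharacter G => (charDegree (ψ : G → ℂ)).factorization p) ''
        blockOf M (χs : G → ℂ)) ≤ (charDegree (χs : G → ℂ)).factorization p :=
      Nat.sInf_le ⟨χs, sameBlock_refl _, rfl⟩
    rw [hχsp] at hle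
    omega
  have hsyl : ∀ D : Subgroup G, IsDefectGroup p M (blockOf M (χs : G → ℂ)) D →
      Nat.card D = p ^ (Nat.card G).factorization p := by
    intro D hD
    rw [← hdefB]
    exact card_defect_group hM χs D hD
  refine ⟨blockOf M (χs : G → ℂ), ⟨χs, rfl⟩, ?_, ?_, ?_⟩
  · intro χ
    constructor
    · intro hχ
      exact hcovmem χs χ hχ hχsθ
    · intro hχ
      show SameBlock M (χs : G → ℂ) (χ : G → ℂ)
      refine sameBlock_of_regular hM χs χ fun g hg => ?_
      by_cases hgN : g ∈ N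
      · rw [← indCC_eq_centralChar N χs θ hχsθ g hgN, ← indCC_eq_centralChar N χ θ hχ g hgN,
          sub_self]
        exact memLocalIdeal_zero hMp.ne_top
      · exact memLocalIdeal_sub (hKC χs hχsθ g hg hgN) (hKC χ hχ g hg hgN)
  · intro P
    obtain ⟨g₀, hg₀⟩ := exists_defect_class (M := M) χs
    obtain ⟨Q⟩ : Nonempty (Sylow p ↥(Subgroup.centralizer ({g₀} : Set G))) := inferInstance
    have hD₀ : IsDefectGroup p M (blockOf M (χs : G → ℂ))
        ((Q : Subgroup ↥(Subgroup.centralizer ({g₀} : Set G))).map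
          (Subgroup.centralizer ({g₀} : Set G)).subtype) := ⟨g₀, hg₀, Q, rfl⟩
    obtain ⟨x, hx⟩ := MulAction.exists_smul_eq G (Sylow.ofCard _ (hsyl _ hD₀)) P
    have hconj := isDefectGroup_conj hM χs _ hD₀ x
    have e : (P : Subgroup G) = ((Q : Subgroup ↥(Subgroup.centralizer ({g₀} : Set G))).map
          (Subgroup.centralizer ({g₀} : Set G)).subtype).map (MulAut.conj x).toMonoidHom := by
      rw [← hx, Sylow.coe_subgroup_smul]
      rfl
    rw [e]
    exact hconj
  · intro D hD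
    exact ⟨Sylow.ofCard D (hsyl D hD), rfl⟩

/-- **Fong**: for `G` `p`-solvable and `θ` a `G`-invariant irreducible character of
`N = O_{p'}(G)`, the characters of `G` over `θ` form a single block, whose defect groups are
the Sylow `p`-subgroups. -/
theorem fong_block_psolv {G : Type u} [Group G] [Fintype G] {p : ℕ} [Fact p.Prime]
    {M : Ideal AlgInt} (hM : IsPModular p M) (hsolv : IsPSolvable p G)
    (N : Subgroup G) [hN : N.Normal] [Fintype N] (hNdef : N = pPrimeCore p G)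
    (θ : IrrCharacter N)
    (hinv : ∀ (g : G) (n : N),
      (θ : N → ℂ) ⟨g * n * g⁻¹, hN.conj_mem n n.2 g⟩ = (θ : N → ℂ) n) :
    ∃ B : Set (IrrCharacter G), IsPBlock M B ∧
      (∀ χ : IrrCharacter G, χ ∈ B ↔
        classInner (fun n : N => (χ : G → ℂ) n) (θ : N → ℂ) ≠ 0) ∧
      (∀ P : Sylow p G, IsDefectGroup p M B (P : Subgroup G)) ∧
      ∀ D : Subgroup G, IsDefectGroup p M B D → ∃ P : Sylow p G, D = (P : Subgroup G) := by
  classical
  have hp : p.Prime := Fact.out
  have hNp : ¬ p ∣ Nat.card N := by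
    rw [hNdef]
    exact ppc_not_dvd hp
  have hsolv' : IsPSolvable p (G ⧸ N) := Cfsg.Agent.Helper23.isPSolvable_quotient hsolv N
  have hcore : pPrimeCore p (G ⧸ N) = ⊥ := by
    subst hNdef
    exact Cfsg.Agent.Helper23.pPrimeCore_quotient_pPrimeCore p
  haveI hVn : (pCore p (G ⧸ N)).Normal := Cfsg.Agent.Helper23.pCore_normal_fin p
  have hVp : IsPGroup p (pCore p (G ⧸ N)) := Cfsg.Agent.Helper23.pCore_isPGroup p
  obtain ⟨L, hLdef⟩ : ∃ L : Subgroup G, L = (pCore p (G ⧸ N)).comap (QuotientGroup.mk' N) :=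
    ⟨_, rfl⟩
  haveI hL : L.Normal := by rw [hLdef]; infer_instance
  haveI : Fintype L := Fintype.ofFinite L
  have hmemL : ∀ y : G, y ∈ L ↔ (QuotientGroup.mk' N y) ∈ pCore p (G ⧸ N) := by
    intro y
    rw [hLdef]
    exact Subgroup.mem_comap
  have hNL : N ≤ L := by
    intro n hn
    rw [hmemL]
    have h1 : QuotientGroup.mk' N n = 1 := (QuotientGroup.eq_one_iff n).mpr hn
    rw [h1]
    exact Subgroup.one_mem _
  have hLp : ∀ y ∈ L, ∃ k : ℕ, y ^ p ^ k ∈ N := by
    intro y hy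
    obtain ⟨k, hk⟩ := hVp ⟨_, (hmemL y).mp hy⟩
    refine ⟨k, ?_⟩
    have hk' : (QuotientGroup.mk' N y) ^ p ^ k = 1 := by
      have := congrArg Subtype.val hk
      simpa using this
    rw [← map_pow] at hk'
    exact (QuotientGroup.eq_one_iff _).mp hk'
  have hLcard : ∃ j : ℕ, Nat.card L = Nat.card N * p ^ j := by
    obtain ⟨j, hj⟩ := IsPGroup.iff_card.mp hVp
    have h1 := Subgroup.card_mul_index L
    have h2 := Subgroup.card_mul_index (pCore p (G ⧸ N))
    have h3 := Subgroup.card_eq_card_quotient_mul_card_subgroup N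
    have h4 : L.index = (pCore p (G ⧸ N)).index := by
      rw [hLdef]
      exact Subgroup.index_comap_of_surjective _ (QuotientGroup.mk'_surjective N)
    have hi0 : L.index ≠ 0 := Subgroup.index_ne_zero_of_finite
    refine ⟨j, ?_⟩
    apply Nat.eq_of_mul_eq_mul_right (Nat.pos_of_ne_zero hi0)
    rw [h1, h3, ← h2, hj, h4]
    ring
  have hHH : ∀ x : G, ¬ p ∣ orderOf x → (∀ y ∈ L, x * y * x⁻¹ * y⁻¹ ∈ N) → x ∈ N := by
    intro x hx hcomm
    have hcent : (QuotientGroup.mk' N x) ∈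
        Subgroup.centralizer ((pCore p (G ⧸ N) : Subgroup (G ⧸ N)) : Set (G ⧸ N)) := by
      rw [Subgroup.mem_centralizer_iff]
      intro z hz
      obtain ⟨y, rfl⟩ := QuotientGroup.mk'_surjective N z
      have hyL : y ∈ L := (hmemL y).mpr hz
      have h1 := hcomm y hyL
      have h2 : (QuotientGroup.mk' N) (x * y * x⁻¹ * y⁻¹) = 1 :=
        (QuotientGroup.eq_one_iff _).mpr h1
      rw [map_mul, map_mul, map_mul, map_inv, map_inv] at h2
      have h3 := mul_inv_eq_one.mp h2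
      have h4 := mul_inv_eq_iff_eq_mul.mp h3
      exact h4.symm
    have hmem := Cfsg.Agent.Helper23.hall_higman hsolv' hcore hcent
    obtain ⟨k, hk⟩ := hVp ⟨_, hmem⟩
    have hk' : (QuotientGroup.mk' N x) ^ p ^ k = 1 := by
      have := congrArg Subtype.val hk
      simpa using this
    have h1 : orderOf (QuotientGroup.mk' N x) ∣ p ^ k := orderOf_dvd_of_pow_eq_one hk'
    have h2 : orderOf (QuotientGroup.mk' N x) ∣ orderOf x :=
      orderOf_map_dvd (QuotientGroup.mk' N) x
    obtain ⟨i, -, hi⟩ := (Nat.dvd_prime_pow hp).mp h1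
    rcases Nat.eq_zero_or_pos i with rfl | hipos
    · rw [pow_zero] at hi
      exact (QuotientGroup.eq_one_iff x).mp (orderOf_eq_one_iff.mp hi)
    · exfalso
      apply hx
      rw [hi] at h2
      exact dvd_trans (dvd_pow_self p hipos.ne') h2
  exact fong_block_main hM N hNp L hNL hLcard hLp hHH θ hinv

end Cfsg.Agent.Helper22
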