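import Mathlib
import Cfsg.Agent.Helper22.MatInt
import Cfsg.Agent.Helper22.FrobSchur
import Cfsg.Agent.Helper24.CharRegular
import Cfsg.Agent.Helper24.CharInd

/-!
# The centraliser algebra of a permutation representation, via characters (helper22)

For a finite group `G` acting on a finite set `Ω`:

* `permMat g`: permutation matrices; `IsGInv G M`: `M` commutes with the action.
* `thetaFun M g = tr (M P(g))`, `cchi M χ = |G|⁻¹ ∑ g, thetaFun M g * χ g`.
* `trace_eq_sum_cchi`: `tr M = ∑ χ, χ 1 * cchi M χ`.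
* `cchi_isIntegral`: for integer `G`-invariant `M` and a character `χ`, `cchi M χ` is an algebraic
  integer.
* `cchi_eq_zero_of`, `cchi_mul_of`: vanishing/multiplicativity when the multiplicity is `0`/`1`.
* `cchi_one_eq_rowsum`, `cchi_transpose`, `cchi_one_eq_conj`.
* `orbMat G a b`: the orbital matrix of the pair `(a, b)`.
-/

set_option autoImplicit false

namespace Cfsg.Agent.Helper22

open Cfsg Cfsg.Agent.Helper24 Matrix
open scoped Kronecker

universe u v

section PermAlg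

variable {G : Type u} [Group G] {Ω : Type v} [Fintype Ω] [DecidableEq Ω] [MulAction G Ω]

/-- permutation matrices -/
def permMat (g : G) : Matrix Ω Ω ℂ := fun α β => if g • β = α then 1 else 0

theorem permMat_apply (g : G) (α β : Ω) :
    (permMat g : Matrix Ω Ω ℂ) α β = if g • β = α then 1 else 0 := rfl

theorem permMat_one : (permMat (1 : G) : Matrix Ω Ω ℂ) = 1 := by
  ext α β
  rw [permMat_apply, one_smul, Matrix.one_apply]
  by_cases h : α = β
  · rw [if_pos h, if_pos h.symm]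
  · rw [if_neg h, if_neg (Ne.symm h)]

theorem mul_permMat_apply (M : Matrix Ω Ω ℂ) (g : G) (α β : Ω) :
    (M * (permMat g : Matrix Ω Ω ℂ)) α β = M α (g • β) := by
  rw [Matrix.mul_apply]
  have : ∀ γ : Ω, M α γ * (permMat g : Matrix Ω Ω ℂ) γ β =
      if γ = g • β then M α γ else 0 := by
    intro γ
    rw [permMat_apply]
    by_cases h1 : γ = g • β
    · rw [if_pos h1, if_pos h1.symm, mul_one]
    · rw [if_neg h1, if_neg (Ne.symm h1), mul_zero]
  rw [Finset.sum_congr rfl (fun γ _ => this γ), Finset.sum_ite_eq', if_pos (Finset.mem_univ _)]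

theorem permMat_mul_apply (M : Matrix Ω Ω ℂ) (g : G) (α β : Ω) :
    ((permMat g : Matrix Ω Ω ℂ) * M) α β = M (g⁻¹ • α) β := by
  rw [Matrix.mul_apply]
  have : ∀ γ : Ω, (permMat g : Matrix Ω Ω ℂ) α γ * M γ β =
      if γ = g⁻¹ • α then M γ β else 0 := by
    intro γ
    rw [permMat_apply]
    by_cases h1 : γ = g⁻¹ • α
    · rw [if_pos h1, if_pos (by rw [h1, smul_inv_smul]), one_mul]
    · rw [if_neg h1, if_neg (fun h2 => h1 (by rw [← h2, inv_smul_smul])), zero_mul]
  rw [Finset.sum_congr rfl (fun γ _ => this γ), Finset.sum_ite_eq', if_pos (Finset.mem_univ _)]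

theorem permMat_mul (g h : G) :
    (permMat (g * h) : Matrix Ω Ω ℂ) = permMat g * permMat h := by
  ext α β
  rw [mul_permMat_apply, permMat_apply, permMat_apply, mul_smul]

/-- `M` is invariant under the diagonal action of `G` -/
def IsGInv (G : Type u) [Group G] {Ω : Type v} [MulAction G Ω] (M : Matrix Ω Ω ℂ) : Prop :=
  ∀ (g : G) (α β : Ω), M (g • α) (g • β) = M α β

theorem IsGInv.comm {M : Matrix Ω Ω ℂ} (hM : IsGInv G M) (g : G) :
    M * permMat g = permMat g * M := by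
  ext α β
  rw [mul_permMat_apply, permMat_mul_apply, ← hM g (g⁻¹ • α) β, smul_inv_smul]

theorem isGInv_of_comm {M : Matrix Ω Ω ℂ} (h : ∀ g : G, M * permMat g = permMat g * M) :
    IsGInv G M := by
  intro g α β
  have := congrFun (congrFun (h g) (g • α)) β
  rw [mul_permMat_apply, permMat_mul_apply, inv_smul_smul] at this
  exact this

theorem IsGInv.mul {M N : Matrix Ω Ω ℂ} (hM : IsGInv G M) (hN : IsGInv G N) :
    IsGInv G (M * N) :=
  isGInv_of_comm (fun g => by
    rw [Matrix.mul_assoc, hN.comm, ← Matrix.mul_assoc, hM.comm, Matrix.mul_assoc])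

theorem IsGInv.transpose {M : Matrix Ω Ω ℂ} (hM : IsGInv G M) : IsGInv G Mᵀ :=
  fun g α β => hM g β α

theorem IsGInv.conjTranspose {M : Matrix Ω Ω ℂ} (hM : IsGInv G M) : IsGInv G Mᴴ :=
  fun g α β => by
    rw [Matrix.conjTranspose_apply, Matrix.conjTranspose_apply, hM g β α]

theorem IsGInv.sub {M N : Matrix Ω Ω ℂ} (hM : IsGInv G M) (hN : IsGInv G N) :
    IsGInv G (M - N) :=
  fun g α β => by rw [Matrix.sub_apply, Matrix.sub_apply, hM, hN]

theorem isGInv_one : IsGInv G (1 : Matrix Ω Ω ℂ) := by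
  intro g α β
  rw [Matrix.one_apply, Matrix.one_apply]
  by_cases h : α = β
  · rw [if_pos h, if_pos (by rw [h])]
  · rw [if_neg h, if_neg (fun h2 => h (smul_left_cancel g h2))]

/-- `thetaFun M g = tr (M P(g))` -/
def thetaFun (M : Matrix Ω Ω ℂ) (g : G) : ℂ := ∑ α, M α (g • α)

theorem trace_mul_permMat (M : Matrix Ω Ω ℂ) (g : G) :
    (M * permMat g).trace = thetaFun M g := by
  unfold Matrix.trace thetaFun
  refine Finset.sum_congr rfl (fun α _ => ?_)
  rw [Matrix.diag_apply, mul_permMat_apply]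

theorem thetaFun_one (g : G) :
    thetaFun (1 : Matrix Ω Ω ℂ) g = (Nat.card (MulAction.fixedBy Ω g) : ℂ) := by
  unfold thetaFun
  have h1 : ∀ α : Ω, (1 : Matrix Ω Ω ℂ) α (g • α) = if g • α = α then 1 else 0 := by
    intro α
    rw [Matrix.one_apply]
    by_cases h : g • α = α
    · rw [if_pos h, if_pos h.symm]
    · rw [if_neg h, if_neg (Ne.symm h)]
  rw [Finset.sum_congr rfl (fun α _ => h1 α), Finset.sum_boole]
  congr 1
  exact (Nat.subtype_card (Finset.univ.filter (fun α : Ω => g • α = α))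
    (fun x => by rw [Finset.mem_filter, MulAction.mem_fixedBy]; simp)).symm

theorem thetaFun_transpose {M : Matrix Ω Ω ℂ} (hM : IsGInv G M) (g : G) :
    thetaFun Mᵀ g = thetaFun M g⁻¹ := by
  unfold thetaFun
  refine Finset.sum_congr rfl (fun α _ => ?_)
  rw [Matrix.transpose_apply, ← hM g⁻¹ (g • α) α, inv_smul_smul]

variable [Fintype G]

/-- `cchi M χ = |G|⁻¹ ∑ g, tr (M P(g)) χ(g)` -/
noncomputable def cchi (M : Matrix Ω Ω ℂ) (χ : G → ℂ) : ℂ :=
  (Nat.card G : ℂ)⁻¹ * ∑ g : G, thetaFun M g * χ g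

theorem cchi_sub (M N : Matrix Ω Ω ℂ) (χ : G → ℂ) : cchi (M - N) χ = cchi M χ - cchi N χ := by
  unfold cchi thetaFun
  rw [← mul_sub, ← Finset.sum_sub_distrib]
  congr 1
  refine Finset.sum_congr rfl (fun g _ => ?_)
  rw [← sub_mul, ← Finset.sum_sub_distrib]
  rfl

theorem cchi_add_fun (M : Matrix Ω Ω ℂ) (χ ψ : G → ℂ) :
    cchi M (χ + ψ) = cchi M χ + cchi M ψ := by
  unfold cchi
  rw [← mul_add, ← Finset.sum_add_distrib]
  congr 1
  refine Finset.sum_congr rfl (fun g _ => ?_)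
  rw [Pi.add_apply, mul_add]

theorem cchi_transpose {M : Matrix Ω Ω ℂ} (hM : IsGInv G M) (χ : G → ℂ) :
    cchi Mᵀ χ = cchi M (fun g => χ g⁻¹) := by
  unfold cchi
  congr 1
  exact (Fintype.sum_equiv (Equiv.inv G) (fun g => thetaFun M g * χ g⁻¹)
    (fun g => thetaFun Mᵀ g * χ g) (fun g => by
      show thetaFun M g * χ g⁻¹ = thetaFun Mᵀ g⁻¹ * χ g⁻¹
      rw [thetaFun_transpose hM, inv_inv])).symm

theorem cchi_one_eq_conj (χ : G → ℂ) :
    cchi (1 : Matrix Ω Ω ℂ) χ =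
      starRingEnd ℂ (classInner (fun g : G => (Nat.card (MulAction.fixedBy Ω g) : ℂ)) χ) := by
  unfold cchi classInner
  rw [map_mul, map_inv₀, Complex.conj_natCast, map_sum]
  congr 1
  refine Finset.sum_congr rfl (fun g _ => ?_)
  rw [thetaFun_one, map_mul, Complex.conj_natCast, Complex.conj_conj]

theorem cchi_one_eq_classInner_star (χ : G → ℂ) :
    cchi (1 : Matrix Ω Ω ℂ) χ =
      classInner (fun g : G => (Nat.card (MulAction.fixedBy Ω g) : ℂ))
        (fun g => starRingEnd ℂ (χ g)) := by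
  unfold cchi classInner
  congr 1
  refine Finset.sum_congr rfl (fun g _ => ?_)
  rw [thetaFun_one, Complex.conj_conj]

/-- the trace as a sum over irreducible characters -/
theorem trace_eq_sum_cchi (M : Matrix Ω Ω ℂ) :
    M.trace = ∑ χ : IrrCharacter G, (χ : G → ℂ) 1 * cchi M (χ : G → ℂ) := by
  classical
  have hN : (Nat.card G : ℂ) ≠ 0 := Nat.cast_ne_zero.mpr Nat.card_pos.ne'
  have h1 : ∑ χ : IrrCharacter G, (χ : G → ℂ) 1 * cchi M (χ : G → ℂ) =
      (Nat.card G : ℂ)⁻¹ * ∑ g : G, thetaFun M g *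
        ∑ χ : IrrCharacter G, (χ : G → ℂ) 1 * (χ : G → ℂ) g := by
    unfold cchi
    simp only [Finset.mul_sum]
    rw [Finset.sum_comm]
    refine Finset.sum_congr rfl (fun g _ => Finset.sum_congr rfl (fun χ _ => by ring))
  rw [h1]
  simp only [sum_irr_one_mul]
  have h2 : ∑ g : G, thetaFun M g * (if g = 1 then (Nat.card G : ℂ) else 0) =
      thetaFun M (1 : G) * (Nat.card G : ℂ) := by
    rw [Finset.sum_eq_single (1 : G)]
    · rw [if_pos rfl]
    · intro g _ hg; rw [if_neg hg, mul_zero]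
    · intro h; exact absurd (Finset.mem_univ _) h
  rw [h2, mul_comm (thetaFun M (1 : G)), ← mul_assoc, inv_mul_cancel₀ hN, one_mul]
  unfold thetaFun Matrix.trace
  refine Finset.sum_congr rfl (fun α _ => by rw [one_smul]; rfl)

variable {n : ℕ}

/-- the projection onto `G`-invariants of `ℂ^Ω ⊗ ℂ^n` -/
noncomputable def bigPi (ρ : Representation ℂ G (Fin n → ℂ)) :
    Matrix (Ω × Fin n) (Ω × Fin n) ℂ :=
  (Nat.card G : ℂ)⁻¹ • ∑ g : G, (permMat g : Matrix Ω Ω ℂ) ⊗ₖ rmat ρ g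

theorem bigPi_idem (ρ : Representation ℂ G (Fin n → ℂ)) :
    (bigPi ρ : Matrix (Ω × Fin n) (Ω × Fin n) ℂ) * bigPi ρ = bigPi ρ := by
  have hN : (Nat.card G : ℂ) ≠ 0 := Nat.cast_ne_zero.mpr Nat.card_pos.ne'
  unfold bigPi
  rw [Matrix.smul_mul, Matrix.mul_smul, smul_smul, Finset.sum_mul]
  have h1 : ∀ g : G, ((permMat g : Matrix Ω Ω ℂ) ⊗ₖ rmat ρ g) *
      ∑ h : G, (permMat h : Matrix Ω Ω ℂ) ⊗ₖ rmat ρ h =
      ∑ h : G, (permMat h : Matrix Ω Ω ℂ) ⊗ₖ rmat ρ h := by
    intro g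
    rw [Finset.mul_sum]
    exact Fintype.sum_equiv (Equiv.mulLeft g) _ _ (fun h => by
      rw [← Matrix.mul_kronecker_mul, ← permMat_mul, ← rmat_mul]; rfl)
  rw [Finset.sum_congr rfl (fun g _ => h1 g), Finset.sum_const, Finset.card_univ,
    ← Nat.card_eq_fintype_card, ← Nat.cast_smul_eq_nsmul ℂ, smul_smul, mul_assoc,
    inv_mul_cancel₀ hN, mul_one]

theorem kron_one_comm_bigPi (ρ : Representation ℂ G (Fin n → ℂ)) {M : Matrix Ω Ω ℂ}
    (hM : IsGInv G M) :
    (M ⊗ₖ (1 : Matrix (Fin n) (Fin n) ℂ)) * bigPi ρ =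
      bigPi ρ * (M ⊗ₖ (1 : Matrix (Fin n) (Fin n) ℂ)) := by
  unfold bigPi
  rw [Matrix.mul_smul, Matrix.smul_mul, Finset.mul_sum, Finset.sum_mul]
  congr 1
  refine Finset.sum_congr rfl (fun g _ => ?_)
  rw [← Matrix.mul_kronecker_mul, ← Matrix.mul_kronecker_mul, hM.comm g, Matrix.one_mul,
    Matrix.mul_one]

theorem trace_kron_one_mul_bigPi (ρ : Representation ℂ G (Fin n → ℂ)) (M : Matrix Ω Ω ℂ) :
    ((M ⊗ₖ (1 : Matrix (Fin n) (Fin n) ℂ)) * bigPi ρ).trace = cchi M ρ.character := by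
  unfold bigPi cchi
  rw [Matrix.mul_smul, Matrix.trace_smul, smul_eq_mul, Finset.mul_sum, Matrix.trace_sum]
  congr 1
  refine Finset.sum_congr rfl (fun g _ => ?_)
  rw [← Matrix.mul_kronecker_mul, Matrix.one_mul, Matrix.trace_kronecker, trace_mul_permMat,
    rmat_trace]

theorem trace_bigPi (ρ : Representation ℂ G (Fin n → ℂ)) :
    (bigPi ρ : Matrix (Ω × Fin n) (Ω × Fin n) ℂ).trace =
      cchi (1 : Matrix Ω Ω ℂ) ρ.character := by
  rw [← trace_kron_one_mul_bigPi, Matrix.one_kronecker_one, Matrix.one_mul]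

/-- multiplicity zero: the coefficient vanishes -/
theorem cchi_eq_zero_of (ρ : Representation ℂ G (Fin n → ℂ))
    (h0 : cchi (1 : Matrix Ω Ω ℂ) ρ.character = 0) (M : Matrix Ω Ω ℂ) :
    cchi M ρ.character = 0 := by
  have htr : (bigPi ρ : Matrix (Ω × Fin n) (Ω × Fin n) ℂ).trace = 0 := by
    rw [trace_bigPi, h0]
  have hz := idem_trace_zero _ (bigPi_idem ρ) htr
  rw [← trace_kron_one_mul_bigPi, hz, Matrix.mul_zero, Matrix.trace_zero]

/-- multiplicity one: the coefficient is multiplicative -/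
theorem cchi_mul_of (ρ : Representation ℂ G (Fin n → ℂ))
    (h1 : cchi (1 : Matrix Ω Ω ℂ) ρ.character = 1) {M N : Matrix Ω Ω ℂ} (hN : IsGInv G N) :
    cchi (M * N) ρ.character = cchi M ρ.character * cchi N ρ.character := by
  have htr : (bigPi ρ : Matrix (Ω × Fin n) (Ω × Fin n) ℂ).trace = 1 := by
    rw [trace_bigPi, h1]
  have hidem : (bigPi ρ : Matrix (Ω × Fin n) (Ω × Fin n) ℂ) * bigPi ρ = bigPi ρ := bigPi_idem ρ
  have hNc := kron_one_comm_bigPi ρ hN
  have hcorner := idem_trace_one_corner _ hidem htr (N ⊗ₖ (1 : Matrix (Fin n) (Fin n) ℂ))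
  rw [← trace_kron_one_mul_bigPi, ← trace_kron_one_mul_bigPi, ← trace_kron_one_mul_bigPi]
  have hk : (M * N) ⊗ₖ (1 : Matrix (Fin n) (Fin n) ℂ) = (M ⊗ₖ 1) * (N ⊗ₖ 1) := by
    rw [← Matrix.mul_kronecker_mul, Matrix.one_mul]
  rw [hk]
  have h2 : (M ⊗ₖ (1 : Matrix (Fin n) (Fin n) ℂ)) * (N ⊗ₖ 1) * bigPi ρ =
      (M ⊗ₖ 1) * (bigPi ρ * (N ⊗ₖ 1) * bigPi ρ) := by
    calc (M ⊗ₖ (1 : Matrix (Fin n) (Fin n) ℂ)) * (N ⊗ₖ 1) * bigPi ρ
        = (M ⊗ₖ 1) * ((N ⊗ₖ 1) * (bigPi ρ * bigPi ρ)) := by rw [hidem, Matrix.mul_assoc]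
      _ = (M ⊗ₖ 1) * (((N ⊗ₖ 1) * bigPi ρ) * bigPi ρ) := by rw [Matrix.mul_assoc]
      _ = (M ⊗ₖ 1) * ((bigPi ρ * (N ⊗ₖ 1)) * bigPi ρ) := by rw [hNc]
  rw [h2, hcorner, Matrix.mul_smul, Matrix.trace_smul, smul_eq_mul, mul_comm]

/-- `X ↦ X ⊗ 1` as a ring homomorphism -/
def kronOneHom (Ω : Type v) [Fintype Ω] [DecidableEq Ω] (n : ℕ) :
    Matrix Ω Ω ℂ →+* Matrix (Ω × Fin n) (Ω × Fin n) ℂ where
  toFun X := X ⊗ₖ (1 : Matrix (Fin n) (Fin n) ℂ)
  map_one' := Matrix.one_kronecker_one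
  map_mul' X Y := by rw [← Matrix.mul_kronecker_mul, Matrix.one_mul]
  map_zero' := Matrix.zero_kronecker _
  map_add' X Y := Matrix.add_kronecker _ _ _

/-- integrality of the coefficients of integer matrices in the centraliser algebra -/
theorem cchi_isIntegral (ρ : Representation ℂ G (Fin n → ℂ)) (Mz : Matrix Ω Ω ℤ)
    (hM : IsGInv G (Mz.map (Int.castRingHom ℂ))) :
    IsIntegral ℤ (cchi (Mz.map (Int.castRingHom ℂ)) ρ.character) := by
  have hidem : (bigPi ρ : Matrix (Ω × Fin n) (Ω × Fin n) ℂ) * bigPi ρ = bigPi ρ := bigPi_idem ρ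
  have hc := kron_one_comm_bigPi ρ hM
  rw [← trace_kron_one_mul_bigPi]
  obtain ⟨bM, hbM⟩ : ∃ bM : Matrix (Ω × Fin n) (Ω × Fin n) ℂ,
      bM = (Mz.map (Int.castRingHom ℂ)) ⊗ₖ (1 : Matrix (Fin n) (Fin n) ℂ) := ⟨_, rfl⟩
  obtain ⟨P, hP⟩ : ∃ P : Matrix (Ω × Fin n) (Ω × Fin n) ℂ, P = bigPi ρ := ⟨_, rfl⟩
  rw [← hbM, ← hP] at hc ⊢
  rw [← hP] at hidem
  have hq : Polynomial.aeval bM Mz.charpoly = 0 := by
    have h1 := Polynomial.aeval_algHom_apply
      ((kronOneHom Ω n).comp (Int.castRingHom ℂ).mapMatrix).toIntAlgHom Mz Mz.charpoly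
    rw [Matrix.aeval_self_charpoly, map_zero] at h1
    rw [hbM]
    exact h1
  have hpow : ∀ k : ℕ, (bM * P) ^ k * P = bM ^ k * P := by
    intro k
    induction k with
    | zero => simp
    | succ k ih =>
      calc (bM * P) ^ (k + 1) * P = (bM * P) ^ k * ((bM * P) * P) := by
            rw [pow_succ, Matrix.mul_assoc]
        _ = (bM * P) ^ k * (P * bM) := by rw [Matrix.mul_assoc, hidem, hc]
        _ = ((bM * P) ^ k * P) * bM := by rw [Matrix.mul_assoc]
        _ = (bM ^ k * P) * bM := by rw [ih]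
        _ = bM ^ k * (bM * P) := by rw [Matrix.mul_assoc, ← hc]
        _ = bM ^ (k + 1) * P := by rw [← Matrix.mul_assoc, ← pow_succ]
  have hclaim : ∀ q : Polynomial ℤ,
      Polynomial.aeval (bM * P) q * P = Polynomial.aeval bM q * P := by
    intro q
    induction q using Polynomial.induction_on' with
    | add p q hp hq => rw [map_add, map_add, Matrix.add_mul, Matrix.add_mul, hp, hq]
    | monomial k a =>
      rw [Polynomial.aeval_monomial, Polynomial.aeval_monomial, Matrix.mul_assoc, hpow,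
        ← Matrix.mul_assoc]
  have hfinal : Polynomial.aeval (bM * P) (Mz.charpoly * Polynomial.X) = 0 := by
    rw [map_mul, Polynomial.aeval_X]
    calc Polynomial.aeval (bM * P) Mz.charpoly * (bM * P)
        = Polynomial.aeval (bM * P) Mz.charpoly * (P * bM) := by rw [hc]
      _ = (Polynomial.aeval (bM * P) Mz.charpoly * P) * bM := by rw [Matrix.mul_assoc]
      _ = (Polynomial.aeval bM Mz.charpoly * P) * bM := by rw [hclaim]
      _ = 0 := by rw [hq, Matrix.zero_mul, Matrix.zero_mul]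
  exact isIntegral_trace_of_aeval_eq_zero _ _
    ((Matrix.charpoly_monic Mz).mul Polynomial.monic_X) hfinal

/-- for a transitive action, the principal coefficient is the row sum -/
theorem cchi_one_eq_rowsum [MulAction.IsPretransitive G Ω] {M : Matrix Ω Ω ℂ}
    (hM : IsGInv G M) (a : Ω) :
    cchi M (fun _ : G => (1 : ℂ)) = ∑ β, M a β := by
  classical
  have hN : (Nat.card G : ℂ) ≠ 0 := Nat.cast_ne_zero.mpr Nat.card_pos.ne'
  have hΩ : (Fintype.card Ω : ℂ) ≠ 0 :=
    Nat.cast_ne_zero.mpr (Fintype.card_pos_iff.mpr ⟨a⟩).ne'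
  have hcard : ∀ α β : Ω, ((Finset.univ.filter (fun g : G => g • α = β)).card : ℂ) *
      (Fintype.card Ω : ℂ) = (Nat.card G : ℂ) := by
    intro α β
    rw [card_fiber_smul α β, ← Nat.card_eq_fintype_card,
      ← MulAction.index_stabilizer_of_transitive G α, ← Nat.cast_mul, Subgroup.card_mul_index]
  have h1 : ∀ α : Ω, ∑ g : G, M α (g • α) = ∑ β : Ω,
      ((Finset.univ.filter (fun g : G => g • α = β)).card : ℂ) * M α β := by
    intro α
    rw [← Finset.sum_fiberwise (s := Finset.univ) (g := fun g : G => g • α)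
      (f := fun g => M α (g • α))]
    refine Finset.sum_congr rfl (fun β _ => ?_)
    have h2 : ∀ g ∈ Finset.univ.filter (fun g : G => g • α = β), M α (g • α) = M α β :=
      fun g hg => by rw [(Finset.mem_filter.mp hg).2]
    rw [Finset.sum_congr rfl h2, Finset.sum_const, nsmul_eq_mul]
  have h3 : ∀ α : Ω, ∑ β : Ω, M α β = ∑ β : Ω, M a β := by
    intro α
    obtain ⟨x, rfl⟩ := MulAction.exists_smul_eq G a α
    exact (Fintype.sum_equiv (MulAction.toPerm x) (fun β => M a β) (fun β => M (x • a) β)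
      (fun β => (hM x a β).symm)).symm
  unfold cchi thetaFun
  simp only [mul_one]
  rw [Finset.sum_comm]
  have h4 : ∀ α : Ω, (Fintype.card Ω : ℂ) * ∑ g : G, M α (g • α) =
      (Nat.card G : ℂ) * ∑ β : Ω, M a β := by
    intro α
    rw [h1 α, Finset.mul_sum, ← h3 α, Finset.mul_sum]
    refine Finset.sum_congr rfl (fun β _ => ?_)
    rw [← mul_assoc, mul_comm (Fintype.card Ω : ℂ), hcard α β]
  have h5 : (Fintype.card Ω : ℂ) * ∑ α : Ω, ∑ g : G, M α (g • α) =
      (Fintype.card Ω : ℂ) * ((Nat.card G : ℂ) * ∑ β : Ω, M a β) := by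
    rw [Finset.mul_sum, Finset.sum_congr rfl (fun α _ => h4 α), Finset.sum_const,
      Finset.card_univ, nsmul_eq_mul]
  rw [mul_left_cancel₀ hΩ h5, ← mul_assoc, inv_mul_cancel₀ hN, one_mul]

end PermAlg

section Orbital

variable (G : Type u) [Group G] {Ω : Type v} [MulAction G Ω]

open Classical in
/-- the orbital matrix of the pair `(a, b)`, with integer entries -/
noncomputable def orbMatZ (a b : Ω) : Matrix Ω Ω ℤ :=
  fun α β => if ∃ g : G, g • a = α ∧ g • b = β then 1 else 0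

/-- the orbital matrix of the pair `(a, b)` -/
noncomputable def orbMat (a b : Ω) : Matrix Ω Ω ℂ := (orbMatZ G a b).map (Int.castRingHom ℂ)

open Classical in
theorem orbMat_apply (a b α β : Ω) :
    orbMat G a b α β = if ∃ g : G, g • a = α ∧ g • b = β then 1 else 0 := by
  show (Int.castRingHom ℂ) (if ∃ g : G, g • a = α ∧ g • b = β then 1 else 0) = _
  split_ifs <;> simp

theorem orbMat_isGInv (a b : Ω) : IsGInv G (orbMat G a b) := by
  classical
  intro x α β
  rw [orbMat_apply, orbMat_apply]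
  have hiff : (∃ g : G, g • a = x • α ∧ g • b = x • β) ↔ ∃ g : G, g • a = α ∧ g • b = β := by
    constructor
    · rintro ⟨g, h1, h2⟩
      exact ⟨x⁻¹ * g, by rw [mul_smul, h1, inv_smul_smul], by rw [mul_smul, h2, inv_smul_smul]⟩
    · rintro ⟨g, h1, h2⟩
      exact ⟨x * g, by rw [mul_smul, h1], by rw [mul_smul, h2]⟩
  simp only [hiff]

theorem orbMat_self (a b : Ω) : orbMat G a b a b = 1 := by
  classical
  rw [orbMat_apply, if_pos ⟨1, one_smul _ _, one_smul _ _⟩]

theorem orbMat_eq_one_iff (a b α β : Ω) :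
    orbMat G a b α β = 1 ↔ ∃ g : G, g • a = α ∧ g • b = β := by
  classical
  rw [orbMat_apply]
  split_ifs with h
  · simp [h]
  · simp [h]

theorem orbMat_diag [Fintype Ω] {a b : Ω} (hab : b ≠ a) : (orbMat G a b).trace = 0 := by
  classical
  unfold Matrix.trace
  refine Finset.sum_eq_zero (fun α _ => ?_)
  rw [Matrix.diag_apply, orbMat_apply, if_neg]
  rintro ⟨g, h1, h2⟩
  exact hab (smul_left_cancel g (h2.trans h1.symm))

theorem orbMat_rowsum [Fintype Ω] (a b : Ω) :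
    ∑ β, orbMat G a b a β = (Nat.card (MulAction.orbit (MulAction.stabilizer G a) b) : ℂ) := by
  classical
  simp only [orbMat_apply]
  rw [Finset.sum_boole]
  congr 1
  refine (Nat.subtype_card (Finset.univ.filter (fun β : Ω => ∃ g : G, g • a = a ∧ g • b = β))
    (fun β => ?_)).symm
  rw [Finset.mem_filter, MulAction.mem_orbit_iff]
  constructor
  · rintro ⟨-, g, h1, h2⟩
    exact ⟨⟨g, h1⟩, h2⟩
  · rintro ⟨⟨g, h1⟩, h2⟩
    exact ⟨Finset.mem_univ _, g, h1, h2⟩

end Orbital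

end Cfsg.Agent.Helper22
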