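import Mathlib
import Cfsg.Agent.Helper22.PermAlg
import Cfsg.Agent.Helper22.FrobSchur2
import Cfsg.Agent.Helper24.CharDecomp
import Cfsg.Agent.Helper24.CharGagola
import Cfsg.Agent.Helper24.CharInd
import Cfsg.Agent.Helper24.CharProd
import Cfsg.Agent.Helper5.CentralChar

/-!
# Rank and multiplicities of a transitive permutation character
-/

set_option autoImplicit false

namespace Cfsg.Agent.Helper22

open Cfsg Cfsg.Agent.Helper24 Cfsg.Agent.Helper5

theorem isCharacter_permChar {G : Type*} [Group G] [Fintype G] {Ω : Type*} [Fintype Ω]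
    [MulAction G Ω] [MulAction.IsPretransitive G Ω] (a : Ω) :
    IsCharacter G (fun g : G => (Nat.card (MulAction.fixedBy Ω g) : ℂ)) := by
  classical
  rw [permChar_eq_indFun Ω a]
  exact isCharacter_induced _ _
    (isCharacter_of_isIrrCharacter Cfsg.Agent.Helper24.isIrrCharacter_one)

theorem inner_self_eq_sum_sq {G : Type*} [Group G] [Fintype G] (π : G → ℂ)
    (c : IrrCharacter G → ℕ)
    (hc : ∀ ψ : IrrCharacter G, classInner π (ψ : G → ℂ) = c ψ)
    (hdec : π = ∑ ψ : IrrCharacter G, (c ψ : ℂ) • (ψ : G → ℂ)) :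
    classInner π π = ∑ ψ : IrrCharacter G, (c ψ : ℂ) * (c ψ : ℂ) := by
  calc classInner π π = classInner (∑ ψ : IrrCharacter G, (c ψ : ℂ) • (ψ : G → ℂ)) π :=
        congrArg (fun φ => classInner φ π) hdec
    _ = ∑ ψ : IrrCharacter G, classInner ((c ψ : ℂ) • (ψ : G → ℂ)) π :=
        classInner_sum_left _ _ _
    _ = ∑ ψ : IrrCharacter G, (c ψ : ℂ) * (c ψ : ℂ) :=
        Finset.sum_congr rfl (fun ψ _ => by
          rw [classInner_smul_left, classInner_conj_symm, hc ψ, Complex.conj_natCast])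

/-- `[π, π]` is the rank -/
theorem inner_perm_self {G : Type*} [Group G] [Fintype G] {Ω : Type*} [Fintype Ω]
    [MulAction G Ω] [MulAction.IsPretransitive G Ω] (a : Ω) :
    classInner (fun g : G => (Nat.card (MulAction.fixedBy Ω g) : ℂ))
        (fun g : G => (Nat.card (MulAction.fixedBy Ω g) : ℂ)) =
      (Nat.card (MulAction.orbitRel.Quotient (MulAction.stabilizer G a) Ω) : ℂ) := by
  classical
  haveI : Fintype (MulAction.stabilizer G a) := Fintype.ofFinite _
  have hπ := isCharacter_permChar (G := G) a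
  have hH : (Nat.card (MulAction.stabilizer G a) : ℂ) ≠ 0 :=
    Nat.cast_ne_zero.mpr Nat.card_pos.ne'
  have h1 : classInner (fun g : G => (Nat.card (MulAction.fixedBy Ω g) : ℂ))
      (fun g : G => (Nat.card (MulAction.fixedBy Ω g) : ℂ)) =
      classInner (indFun (MulAction.stabilizer G a) (fun _ => 1))
        (fun g : G => (Nat.card (MulAction.fixedBy Ω g) : ℂ)) :=
    congrArg (fun φ => classInner φ (fun g : G => (Nat.card (MulAction.fixedBy Ω g) : ℂ)))
      (permChar_eq_indFun Ω a)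
  rw [h1, classInner_indFun _ _ _ (isCharacter_isClassFunction hπ), classInner_def']
  have hb := burnside_card (G := MulAction.stabilizer G a) Ω
  have hsum : ∑ h : MulAction.stabilizer G a,
      (1 : ℂ) * starRingEnd ℂ ((Nat.card (MulAction.fixedBy Ω (h : G)) : ℂ)) =
      (Nat.card (MulAction.orbitRel.Quotient (MulAction.stabilizer G a) Ω) : ℂ) *
        (Nat.card (MulAction.stabilizer G a) : ℂ) := by
    rw [← Nat.cast_mul, ← hb, Nat.cast_sum]
    refine Finset.sum_congr rfl (fun h _ => ?_)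
    rw [one_mul, Complex.conj_natCast]
    rfl
  show (Nat.card (MulAction.stabilizer G a) : ℂ)⁻¹ * ∑ h : MulAction.stabilizer G a,
      (1 : ℂ) * starRingEnd ℂ ((Nat.card (MulAction.fixedBy Ω (h : G)) : ℂ)) = _
  rw [hsum, mul_comm, mul_assoc, mul_inv_cancel₀ hH, mul_one]

/-- `[π, 1] = 1` -/
theorem inner_perm_one {G : Type*} [Group G] [Fintype G] {Ω : Type*} [Fintype Ω]
    [MulAction G Ω] [MulAction.IsPretransitive G Ω] (a : Ω) :
    classInner (fun g : G => (Nat.card (MulAction.fixedBy Ω g) : ℂ)) (fun _ => 1) = 1 := by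
  classical
  have h1 := cchi_one_eq_rowsum (G := G) (isGInv_one (G := G) (Ω := Ω)) a
  rw [cchi_one_eq_conj] at h1
  have h2 : ∑ β : Ω, (1 : Matrix Ω Ω ℂ) a β = 1 := by
    rw [Finset.sum_eq_single a]
    · exact Matrix.one_apply_eq a
    · intro β _ hβ; exact Matrix.one_apply_ne (Ne.symm hβ)
    · intro h; exact absurd (Finset.mem_univ _) h
  rw [h2] at h1
  have := congrArg (starRingEnd ℂ) h1
  rwa [Complex.conj_conj, map_one] at this

/-- multiplicities `c`, degrees `d` of the permutation character, with rank and degree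
formulas -/
theorem perm_data {G : Type*} [Group G] [Fintype G] {Ω : Type*} [Fintype Ω] [MulAction G Ω]
    [MulAction.IsPretransitive G Ω] (a : Ω) :
    ∃ c d : IrrCharacter G → ℕ,
      (∀ ψ : IrrCharacter G,
        classInner (fun g : G => (Nat.card (MulAction.fixedBy Ω g) : ℂ)) (ψ : G → ℂ) = c ψ) ∧
      (∀ ψ : IrrCharacter G, 0 < d ψ ∧ (ψ : G → ℂ) 1 = d ψ) ∧
      (∀ ψ : IrrCharacter G, (ψ : G → ℂ) = (fun _ => 1) → c ψ = 1) ∧
      Nat.card (MulAction.orbitRel.Quotient (MulAction.stabilizer G a) Ω) =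
        ∑ ψ : IrrCharacter G, c ψ ^ 2 ∧
      Nat.card Ω = ∑ ψ : IrrCharacter G, c ψ * d ψ ∧
      (fun g : G => (Nat.card (MulAction.fixedBy Ω g) : ℂ)) =
        ∑ ψ : IrrCharacter G, (c ψ : ℂ) • (ψ : G → ℂ) := by
  classical
  have hπ := isCharacter_permChar (G := G) a
  obtain ⟨c, hc, hdec⟩ := isCharacter_decomp hπ
  choose d hdpos hd using irr_one_eq_natCast_pos (G := G)
  refine ⟨c, d, hc, fun ψ => ⟨hdpos ψ, hd ψ⟩, ?_, ?_, ?_, hdec⟩
  · intro ψ hψ
    have h1 := hc ψ
    rw [hψ, inner_perm_one a] at h1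
    exact_mod_cast h1.symm
  · have h1 := inner_perm_self (G := G) a
    rw [inner_self_eq_sum_sq _ c hc hdec] at h1
    have h3 : ((∑ ψ : IrrCharacter G, c ψ ^ 2 : ℕ) : ℂ) =
        (Nat.card (MulAction.orbitRel.Quotient (MulAction.stabilizer G a) Ω) : ℂ) := by
      rw [← h1]; push_cast; exact Finset.sum_congr rfl (fun ψ _ => sq _)
    exact_mod_cast h3.symm
  · have h1 := congrFun hdec 1
    have h2 : Nat.card (MulAction.fixedBy Ω (1 : G)) = Nat.card Ω := by
      rw [MulAction.fixedBy_one_eq_univ]; exact Nat.card_congr (Equiv.Set.univ Ω)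
    have h3 : ((Nat.card Ω : ℕ) : ℂ) = ((∑ ψ : IrrCharacter G, c ψ * d ψ : ℕ) : ℂ) := by
      rw [← h2]
      refine h1.trans ?_
      rw [Finset.sum_apply]
      simp only [Pi.smul_apply, smul_eq_mul, hd, Nat.cast_sum, Nat.cast_mul]
    exact_mod_cast h3

/-- counting `Ω` by suborbits -/
theorem orbit_count {G : Type*} [Group G] {Ω : Type*} [Fintype Ω] [MulAction G Ω] (a : Ω)
    (f : ℕ)
    (hf : ∀ b : Ω, b ≠ a → f ≤ Nat.card (MulAction.orbit (MulAction.stabilizer G a) b)) :
    1 + (Nat.card (MulAction.orbitRel.Quotient (MulAction.stabilizer G a) Ω) - 1) * f ≤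
        Nat.card Ω ∧
    (Nat.card Ω ≤
        1 + (Nat.card (MulAction.orbitRel.Quotient (MulAction.stabilizer G a) Ω) - 1) * f →
      ∀ b : Ω, b ≠ a → Nat.card (MulAction.orbit (MulAction.stabilizer G a) b) = f) := by
  classical
  haveI : Fintype (MulAction.orbitRel.Quotient (MulAction.stabilizer G a) Ω) :=
    Fintype.ofFinite _
  have horb : MulAction.orbit (MulAction.stabilizer G a) a = {a} := by
    ext x
    rw [MulAction.mem_orbit_iff, Set.mem_singleton_iff]
    constructor
    · rintro ⟨h, rfl⟩; exact MulAction.mem_stabilizer_iff.mp h.2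
    · rintro rfl; exact ⟨1, one_smul _ _⟩
  obtain ⟨ωa, hωa⟩ : ∃ ω : MulAction.orbitRel.Quotient (MulAction.stabilizer G a) Ω,
      ω = Quotient.mk'' a := ⟨_, rfl⟩
  have hcard : Nat.card Ω =
      ∑ ω : MulAction.orbitRel.Quotient (MulAction.stabilizer G a) Ω, Nat.card ω.orbit := by
    rw [Nat.card_congr (MulAction.selfEquivSigmaOrbits' (MulAction.stabilizer G a) Ω),
      Nat.card_sigma]
  have hna : Nat.card ωa.orbit = 1 := by
    rw [hωa, MulAction.orbitRel.Quotient.orbit_mk, horb, Nat.card_coe_set_eq,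
      Set.ncard_singleton]
  have hne : ∀ b : Ω, b ≠ a →
      (Quotient.mk'' b : MulAction.orbitRel.Quotient (MulAction.stabilizer G a) Ω) ≠ ωa := by
    intro b hb h
    rw [hωa, Quotient.eq''] at h
    have h' : b ∈ MulAction.orbit (MulAction.stabilizer G a) a := h
    rw [horb] at h'
    exact hb h'
  have hge : ∀ ω ∈ Finset.univ.erase ωa, f ≤ Nat.card ω.orbit := by
    intro ω hω
    have hω' := Finset.ne_of_mem_erase hω
    obtain ⟨b, rfl⟩ := Quotient.mk''_surjective ω
    rw [MulAction.orbitRel.Quotient.orbit_mk]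
    apply hf
    rintro rfl
    exact hω' hωa.symm
  have hsplit : ∑ ω : MulAction.orbitRel.Quotient (MulAction.stabilizer G a) Ω,
      Nat.card ω.orbit = 1 + ∑ ω ∈ Finset.univ.erase ωa, Nat.card ω.orbit := by
    rw [← Finset.add_sum_erase Finset.univ _ (Finset.mem_univ ωa), hna]
  have hcnt : (Finset.univ.erase ωa).card =
      Nat.card (MulAction.orbitRel.Quotient (MulAction.stabilizer G a) Ω) - 1 := by
    rw [Finset.card_erase_of_mem (Finset.mem_univ _), Finset.card_univ,
      Nat.card_eq_fintype_card]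
  have hle : (Nat.card (MulAction.orbitRel.Quotient (MulAction.stabilizer G a) Ω) - 1) * f ≤
      ∑ ω ∈ Finset.univ.erase ωa, Nat.card ω.orbit := by
    rw [← hcnt, ← smul_eq_mul]
    exact Finset.card_nsmul_le_sum _ _ _ hge
  refine ⟨by rw [hcard, hsplit]; omega, fun hle2 b hb => ?_⟩
  have heq : ∑ ω ∈ Finset.univ.erase ωa, f =
      ∑ ω ∈ Finset.univ.erase ωa, Nat.card ω.orbit := by
    rw [Finset.sum_const, smul_eq_mul, hcnt]
    rw [hcard, hsplit] at hle2
    omega
  have hall := (Finset.sum_eq_sum_iff_of_le hge).mp heq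
  have hb' := hall (Quotient.mk'' b) (Finset.mem_erase.mpr ⟨hne b hb, Finset.mem_univ _⟩)
  rw [MulAction.orbitRel.Quotient.orbit_mk] at hb'
  exact hb'.symm

end Cfsg.Agent.Helper22
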