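import Mathlib
import Cfsg.Agent.Helper22.PermRank

/-!
# Tools for rank 3 primitive groups: suborbits, coefficient lemmas
-/

set_option autoImplicit false

namespace Cfsg.Agent.Helper22

open Cfsg Cfsg.Agent.Helper24 Cfsg.Agent.Helper5

section Coeff

variable {G : Type*} [Group G] [Fintype G] {Ω : Type*} [Fintype Ω] [DecidableEq Ω] [MulAction G Ω]

theorem cchi_zero_irr {χ : G → ℂ} (hχ : IsIrrCharacter G χ)
    (h0 : cchi (1 : Matrix Ω Ω ℂ) χ = 0) (M : Matrix Ω Ω ℂ) : cchi M χ = 0 := by
  obtain ⟨n, ρ, hirr, hρ⟩ := hχ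
  subst hρ
  exact cchi_eq_zero_of ρ h0 M

theorem cchi_mul_irr {χ : G → ℂ} (hχ : IsIrrCharacter G χ)
    (h1 : cchi (1 : Matrix Ω Ω ℂ) χ = 1) {M N : Matrix Ω Ω ℂ} (hN : IsGInv G N) :
    cchi (M * N) χ = cchi M χ * cchi N χ := by
  obtain ⟨n, ρ, hirr, hρ⟩ := hχ
  subst hρ
  exact cchi_mul_of ρ h1 hN

theorem cchi_int_irr {χ : G → ℂ} (hχ : IsIrrCharacter G χ) (Mz : Matrix Ω Ω ℤ)
    (hM : IsGInv G (Mz.map (Int.castRingHom ℂ))) :
    IsIntegral ℤ (cchi (Mz.map (Int.castRingHom ℂ)) χ) := by
  obtain ⟨n, ρ, hirr, hρ⟩ := hχ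
  subst hρ
  exact cchi_isIntegral ρ Mz hM

omit [DecidableEq Ω] in
/-- the coefficient of an integer matrix at the permutation character is rational -/
theorem cchi_perm_rat (Mz : Matrix Ω Ω ℤ) :
    ∃ q : ℚ, cchi (Mz.map (Int.castRingHom ℂ))
      (fun g : G => (Nat.card (MulAction.fixedBy Ω g) : ℂ)) = (q : ℂ) := by
  refine ⟨((∑ g : G, (∑ α : Ω, Mz α (g • α)) * (Nat.card (MulAction.fixedBy Ω g) : ℤ) : ℤ) : ℚ) /
    (Nat.card G : ℚ), ?_⟩
  unfold cchi thetaFun
  simp only [Matrix.map_apply, eq_intCast]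
  push_cast
  ring

/-- a constituent of the permutation character which is determined by its degree
(up to the principal character) is real -/
theorem real_of_unique (ψ : IrrCharacter G)
    (h1 : classInner (fun g : G => (Nat.card (MulAction.fixedBy Ω g) : ℂ)) (ψ : G → ℂ) ≠ 0)
    (hψ0 : (ψ : G → ℂ) ≠ fun _ => 1)
    (hu : ∀ ψ' : IrrCharacter G,
      classInner (fun g : G => (Nat.card (MulAction.fixedBy Ω g) : ℂ)) (ψ' : G → ℂ) ≠ 0 →
      (ψ' : G → ℂ) 1 = (ψ : G → ℂ) 1 → ψ' = ψ ∨ (ψ' : G → ℂ) = fun _ => 1) :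
    ∀ g, starRingEnd ℂ ((ψ : G → ℂ) g) = (ψ : G → ℂ) g := by
  have hstar : IsIrrCharacter G (fun g => starRingEnd ℂ ((ψ : G → ℂ) g)) :=
    isIrrCharacter_star ψ.2
  have hin : classInner (fun g : G => (Nat.card (MulAction.fixedBy Ω g) : ℂ))
      (fun g => starRingEnd ℂ ((ψ : G → ℂ) g)) ≠ 0 := by
    rw [← cchi_one_eq_classInner_star, cchi_one_eq_conj]
    intro h
    apply h1
    have := congrArg (starRingEnd ℂ) h
    rwa [Complex.conj_conj, map_zero] at this
  rcases hu ⟨_, hstar⟩ hin (irr_one_conj ψ) with h | h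
  · intro g
    exact congrFun (congrArg Subtype.val h) g
  · exfalso
    apply hψ0
    funext g
    have := congrArg (starRingEnd ℂ) (congrFun h g)
    rwa [Complex.conj_conj, map_one] at this

end Coeff

/-- in a primitive group of non-prime degree `2m`, no non-trivial suborbit has size 1 -/
theorem suborbit_ne_one {G : Type*} [Group G] [Fintype G] {Ω : Type*} [Fintype Ω]
    [MulAction G Ω] (hprim : MulAction.IsPreprimitive G Ω) {m : ℕ}
    (hm : Fintype.card Ω = 2 * m) (hm2 : 2 ≤ m) (a b : Ω) (hb : b ≠ a) :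
    Nat.card (MulAction.orbit (MulAction.stabilizer G a) b) ≠ 1 := by
  classical
  intro h1
  haveI := hprim.toIsPretransitive
  haveI : Nontrivial Ω := ⟨⟨b, a, hb⟩⟩
  have hHa : IsCoatom (MulAction.stabilizer G a) :=
    (MulAction.isCoatom_stabilizer_iff_preprimitive G a).mpr hprim
  have hHb : IsCoatom (MulAction.stabilizer G b) :=
    (MulAction.isCoatom_stabilizer_iff_preprimitive G b).mpr hprim
  have hle : MulAction.stabilizer G a ≤ MulAction.stabilizer G b := by
    intro h hh
    rw [MulAction.mem_stabilizer_iff]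
    have hsub : Subsingleton (MulAction.orbit (MulAction.stabilizer G a) b) :=
      (Nat.card_eq_one_iff_unique.mp h1).1
    have h2 : (⟨(⟨h, hh⟩ : MulAction.stabilizer G a) • b, MulAction.mem_orbit b _⟩ :
        MulAction.orbit (MulAction.stabilizer G a) b) = ⟨b, MulAction.mem_orbit_self b⟩ :=
      Subsingleton.elim _ _
    exact congrArg Subtype.val h2
  have heq : MulAction.stabilizer G a = MulAction.stabilizer G b := by
    by_contra hne
    exact hHb.1 (hHa.2 _ (lt_of_le_of_ne hle hne))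
  obtain ⟨g, hg⟩ := MulAction.exists_smul_eq G a b
  have hgn : g ∉ MulAction.stabilizer G a := by
    intro hmem
    rw [MulAction.mem_stabilizer_iff] at hmem
    exact hb (hg.symm.trans hmem)
  have hconj : ∀ x : G, x ∈ MulAction.stabilizer G a ↔
      g * x * g⁻¹ ∈ MulAction.stabilizer G b := by
    intro x
    rw [MulAction.mem_stabilizer_iff, MulAction.mem_stabilizer_iff, ← hg, mul_smul, mul_smul,
      inv_smul_smul]
    exact ⟨fun h => by rw [h], fun h => smul_left_cancel g h⟩
  have hgN : g ∈ Subgroup.normalizer (MulAction.stabilizer G a : Set G) := by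
    rw [Subgroup.mem_normalizer_iff]
    intro x
    have h := hconj x
    rw [← heq] at h
    exact h
  have hNtop : Subgroup.normalizer (MulAction.stabilizer G a : Set G) = ⊤ := by
    apply hHa.2
    exact lt_of_le_of_ne Subgroup.le_normalizer (fun h => hgn (by rw [h]; exact hgN))
  haveI hnormal : (MulAction.stabilizer G a).Normal := Subgroup.normalizer_eq_top_iff.mp hNtop
  have hidx : (MulAction.stabilizer G a).index = 2 * m := by
    rw [MulAction.index_stabilizer_of_transitive, Nat.card_eq_fintype_card, hm]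
  have hcardQ : Nat.card (G ⧸ MulAction.stabilizer G a) = 2 * m := hidx
  obtain ⟨x, hx⟩ := exists_prime_orderOf_dvd_card' (G := G ⧸ MulAction.stabilizer G a) 2
    (by rw [hcardQ]; exact dvd_mul_right 2 m)
  have hKtop : (Subgroup.zpowers x).comap (QuotientGroup.mk' (MulAction.stabilizer G a)) = ⊤ := by
    apply hHa.2
    obtain ⟨y, hy⟩ := QuotientGroup.mk'_surjective (MulAction.stabilizer G a) x
    have hyK : y ∈ (Subgroup.zpowers x).comap (QuotientGroup.mk' (MulAction.stabilizer G a)) := by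
      rw [Subgroup.mem_comap, hy]; exact Subgroup.mem_zpowers x
    have hyH : y ∉ MulAction.stabilizer G a := by
      intro hmem
      have h1' : QuotientGroup.mk' (MulAction.stabilizer G a) y = 1 :=
        (QuotientGroup.eq_one_iff y).mpr hmem
      rw [hy] at h1'
      rw [h1', orderOf_one] at hx
      omega
    refine lt_of_le_of_ne (fun h hh => ?_) (fun heq' => hyH (by rw [heq']; exact hyK))
    rw [Subgroup.mem_comap]
    have h1' : QuotientGroup.mk' (MulAction.stabilizer G a) h = 1 :=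
      (QuotientGroup.eq_one_iff h).mpr hh
    rw [h1']; exact one_mem _
  have hztop : Subgroup.zpowers x = ⊤ := by
    rw [eq_top_iff]
    intro q _
    obtain ⟨z, rfl⟩ := QuotientGroup.mk'_surjective (MulAction.stabilizer G a) q
    have hz : z ∈ (Subgroup.zpowers x).comap (QuotientGroup.mk' (MulAction.stabilizer G a)) := by
      rw [hKtop]; exact Subgroup.mem_top z
    exact hz
  have h2 : Nat.card (G ⧸ MulAction.stabilizer G a) = 2 := by
    rw [← hx, ← Nat.card_zpowers, hztop, Subgroup.card_top]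
  omega

/-- the three suborbits of a rank 3 group -/
theorem rank3_decomp {G : Type*} [Group G] {Ω : Type*} [Fintype Ω] [MulAction G Ω] (a : Ω)
    (hrank : Nat.card (MulAction.orbitRel.Quotient (MulAction.stabilizer G a) Ω) = 3)
    (b : Ω) (hb : b ≠ a) :
    ∃ b' : Ω, b' ≠ a ∧ Nat.card Ω = 1 + Nat.card (MulAction.orbit (MulAction.stabilizer G a) b) +
      Nat.card (MulAction.orbit (MulAction.stabilizer G a) b') := by
  classical
  haveI : Fintype (MulAction.orbitRel.Quotient (MulAction.stabilizer G a) Ω) :=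
    Fintype.ofFinite _
  have horb : MulAction.orbit (MulAction.stabilizer G a) a = {a} := by
    ext x
    rw [MulAction.mem_orbit_iff, Set.mem_singleton_iff]
    constructor
    · rintro ⟨h, rfl⟩; exact MulAction.mem_stabilizer_iff.mp h.2
    · rintro rfl; exact ⟨1, one_smul _ _⟩
  obtain ⟨ωa, hωa⟩ : ∃ ω : MulAction.orbitRel.Quotient (MulAction.stabilizer G a) Ω,
      ω = Quotient.mk'' a := ⟨_, rfl⟩
  obtain ⟨ωb, hωb⟩ : ∃ ω : MulAction.orbitRel.Quotient (MulAction.stabilizer G a) Ω,
      ω = Quotient.mk'' b := ⟨_, rfl⟩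
  have hcard : Nat.card Ω =
      ∑ ω : MulAction.orbitRel.Quotient (MulAction.stabilizer G a) Ω, Nat.card ω.orbit := by
    rw [Nat.card_congr (MulAction.selfEquivSigmaOrbits' (MulAction.stabilizer G a) Ω),
      Nat.card_sigma]
  have hna : Nat.card ωa.orbit = 1 := by
    rw [hωa, MulAction.orbitRel.Quotient.orbit_mk, horb, Nat.card_coe_set_eq,
      Set.ncard_singleton]
  have hnb : Nat.card ωb.orbit = Nat.card (MulAction.orbit (MulAction.stabilizer G a) b) := by
    rw [hωb, MulAction.orbitRel.Quotient.orbit_mk]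
  have hne : ωb ≠ ωa := by
    intro h
    rw [hωa, hωb, Quotient.eq''] at h
    have h' : b ∈ MulAction.orbit (MulAction.stabilizer G a) a := h
    rw [horb] at h'
    exact hb h'
  have hc1 : ((Finset.univ.erase ωa).erase ωb).card = 1 := by
    rw [Finset.card_erase_of_mem (Finset.mem_erase.mpr ⟨hne, Finset.mem_univ _⟩),
      Finset.card_erase_of_mem (Finset.mem_univ _), Finset.card_univ,
      ← Nat.card_eq_fintype_card, hrank]
  obtain ⟨ω', hω'⟩ := Finset.card_eq_one.mp hc1
  have hmem : ω' ∈ (Finset.univ.erase ωa).erase ωb := by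
    rw [hω']; exact Finset.mem_singleton_self _
  have hω'a : ω' ≠ ωa := Finset.ne_of_mem_erase (Finset.mem_of_mem_erase hmem)
  obtain ⟨b', hb'⟩ := Quotient.mk''_surjective ω'
  refine ⟨b', ?_, ?_⟩
  · rintro rfl
    exact hω'a (hb'.symm.trans hωa.symm)
  · rw [hcard, ← Finset.add_sum_erase Finset.univ _ (Finset.mem_univ ωa), hna,
      ← Finset.add_sum_erase (Finset.univ.erase ωa) _
        (Finset.mem_erase.mpr ⟨hne, Finset.mem_univ _⟩), hnb, hω', Finset.sum_singleton,
      ← hb', MulAction.orbitRel.Quotient.orbit_mk]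
    omega

end Cfsg.Agent.Helper22
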