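import Mathlib
import Cfsg.Agent.Helper22.FrobSchur
import Cfsg.Agent.Helper24.CharDecomp

/-!
# Frobenius–Schur: indicator `1` iff realizable over `ℝ` (helper22)

For an irreducible complex matrix representation, the Frobenius–Schur indicator is `1` exactly
when the representation is equivalent to one with real matrix entries.
-/

set_option autoImplicit false

namespace Cfsg.Agent.Helper22

open Cfsg Representation Matrix Cfsg.Agent.Helper24

universe u

variable {G : Type u} [Group G] {n : ℕ}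

/-! ### representations from matrix families -/

/-- a representation from a multiplicative family of matrices -/
noncomputable def repOfMat {k : Type*} [Field k] (X : G → Matrix (Fin n) (Fin n) k)
    (h1 : X 1 = 1) (hmul : ∀ g h, X (g * h) = X g * X h) : Representation k G (Fin n → k) where
  toFun g := Matrix.toLin' (X g)
  map_one' := by
    show Matrix.toLin' (X 1) = 1
    rw [h1]; exact Matrix.toLin'_one
  map_mul' g h := by
    show Matrix.toLin' (X (g * h)) = Matrix.toLin' (X g) * Matrix.toLin' (X h)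
    rw [hmul]; exact Matrix.toLin'_mul _ _

theorem repOfMat_apply {k : Type*} [Field k] (X : G → Matrix (Fin n) (Fin n) k)
    (h1 : X 1 = 1) (hmul : ∀ g h, X (g * h) = X g * X h) (g : G) :
    repOfMat X h1 hmul g = Matrix.toLin' (X g) := rfl

theorem trace_toLin'_eq {k : Type*} [Field k] (A : Matrix (Fin n) (Fin n) k) :
    LinearMap.trace k (Fin n → k) (Matrix.toLin' A) = A.trace := by
  rw [LinearMap.trace_eq_matrix_trace k (Pi.basisFun k (Fin n)), LinearMap.toMatrix_eq_toMatrix',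
    LinearMap.toMatrix'_toLin']

theorem rmat_repOfMat (X : G → Matrix (Fin n) (Fin n) ℂ)
    (h1 : X 1 = 1) (hmul : ∀ g h, X (g * h) = X g * X h) (g : G) :
    rmat (repOfMat X h1 hmul) g = X g := by
  rw [rmat, repOfMat_apply, LinearMap.toMatrix'_toLin']

/-! ### complexification and conjugation of matrices -/

/-- complexification of a real matrix -/
noncomputable def cplx (A : Matrix (Fin n) (Fin n) ℝ) : Matrix (Fin n) (Fin n) ℂ :=
  A.map Complex.ofRealHom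

theorem cplx_apply (A : Matrix (Fin n) (Fin n) ℝ) (i j : Fin n) : cplx A i j = (A i j : ℂ) := rfl

theorem cplx_mul (A B : Matrix (Fin n) (Fin n) ℝ) : cplx (A * B) = cplx A * cplx B := by
  unfold cplx; exact Matrix.map_mul

theorem cplx_one : cplx (1 : Matrix (Fin n) (Fin n) ℝ) = 1 := by
  unfold cplx; exact Matrix.map_one _ (map_zero _) (map_one _)

theorem cplx_trace (A : Matrix (Fin n) (Fin n) ℝ) : (cplx A).trace = ((A.trace : ℝ) : ℂ) := by
  unfold Matrix.trace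
  rw [Complex.ofReal_sum]
  rfl

theorem cplx_injective :
    Function.Injective (cplx : Matrix (Fin n) (Fin n) ℝ → Matrix (Fin n) (Fin n) ℂ) := by
  intro A B h
  ext i j
  have h' : (A i j : ℂ) = (B i j : ℂ) := congrFun (congrFun h i) j
  exact Complex.ofReal_injective h'

/-- entrywise complex conjugate -/
noncomputable def cj (A : Matrix (Fin n) (Fin n) ℂ) : Matrix (Fin n) (Fin n) ℂ :=
  A.map (starRingEnd ℂ)

theorem cj_apply (A : Matrix (Fin n) (Fin n) ℂ) (i j : Fin n) :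
    cj A i j = starRingEnd ℂ (A i j) := rfl

theorem cj_mul (A B : Matrix (Fin n) (Fin n) ℂ) : cj (A * B) = cj A * cj B := by
  unfold cj; exact Matrix.map_mul

theorem cj_one : cj (1 : Matrix (Fin n) (Fin n) ℂ) = 1 := by
  unfold cj; exact Matrix.map_one _ (map_zero _) (map_one _)

theorem cj_cj (A : Matrix (Fin n) (Fin n) ℂ) : cj (cj A) = A := by
  ext i j; simp [cj_apply]

theorem cj_transpose (A : Matrix (Fin n) (Fin n) ℂ) : cj Aᵀ = (cj A)ᵀ := rfl

theorem cj_add (A B : Matrix (Fin n) (Fin n) ℂ) : cj (A + B) = cj A + cj B := by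
  ext i j; simp [cj_apply]

theorem cj_smul (c : ℂ) (A : Matrix (Fin n) (Fin n) ℂ) : cj (c • A) = starRingEnd ℂ c • cj A := by
  ext i j; simp [cj_apply]

theorem cj_sum {ι : Type*} (s : Finset ι) (f : ι → Matrix (Fin n) (Fin n) ℂ) :
    cj (∑ i ∈ s, f i) = ∑ i ∈ s, cj (f i) := by
  ext i j; simp [cj_apply, Matrix.sum_apply]

theorem cj_cplx (A : Matrix (Fin n) (Fin n) ℝ) : cj (cplx A) = cplx A := by
  ext i j; simp [cj_apply, cplx_apply]

theorem trace_mul_cj_transpose (B : Matrix (Fin n) (Fin n) ℂ) :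
    (B * (cj B)ᵀ).trace = ((∑ i, ∑ j, Complex.normSq (B i j) : ℝ) : ℂ) := by
  rw [Matrix.trace, Complex.ofReal_sum]
  refine Finset.sum_congr rfl fun i _ => ?_
  rw [Matrix.diag_apply, Matrix.mul_apply, Complex.ofReal_sum]
  refine Finset.sum_congr rfl fun j _ => ?_
  rw [Matrix.transpose_apply, cj_apply, Complex.mul_conj]

theorem normSq_sum_nonneg (A : Matrix (Fin n) (Fin n) ℂ) :
    0 ≤ ∑ i, ∑ j, Complex.normSq (A i j) :=
  Finset.sum_nonneg fun i _ => Finset.sum_nonneg fun j _ => Complex.normSq_nonneg _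

theorem normSq_sum_pos {A : Matrix (Fin n) (Fin n) ℂ} (hA : A ≠ 0) :
    0 < ∑ i, ∑ j, Complex.normSq (A i j) := by
  obtain ⟨i, j, hij⟩ : ∃ i j, A i j ≠ 0 := by
    by_contra hcon
    push Not at hcon
    exact hA (Matrix.ext hcon)
  refine Finset.sum_pos' (fun i _ => Finset.sum_nonneg fun j _ => Complex.normSq_nonneg _)
    ⟨i, Finset.mem_univ _, ?_⟩
  exact Finset.sum_pos' (fun j _ => Complex.normSq_nonneg _)
    ⟨j, Finset.mem_univ _, Complex.normSq_pos.mpr hij⟩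

theorem one_ne_zero_mat (hn : 0 < n) : (1 : Matrix (Fin n) (Fin n) ℂ) ≠ 0 := by
  intro h
  have h' := congrFun (congrFun h ⟨0, hn⟩) ⟨0, hn⟩
  rw [Matrix.one_apply_eq, Matrix.zero_apply] at h'
  exact one_ne_zero h'

/-! ### a real representation has indicator `1` -/

theorem fsInd_eq_one_of_cj_fixed [Fintype G] (ρ : Representation ℂ G (Fin n → ℂ)) [ρ.IsIrreducible]
    (hR : ∀ g, cj (rmat ρ g) = rmat ρ g) : fsInd ρ.character = 1 := by
  have hn := dim_pos_of_irreducible ρ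
  have hS := avgForm_isInvForm ρ (1 : Matrix (Fin n) (Fin n) ℂ)
  have hT := fs_transpose ρ hS
  have hS1 : avgForm ρ (1 : Matrix (Fin n) (Fin n) ℂ) = ∑ g : G, (rmat ρ g)ᵀ * rmat ρ g := by
    rw [avgForm_apply]
    simp only [Matrix.mul_one]
  have hsym : (avgForm ρ (1 : Matrix (Fin n) (Fin n) ℂ))ᵀ = avgForm ρ 1 := by
    rw [hS1, Matrix.transpose_sum]
    refine Finset.sum_congr rfl fun g _ => ?_
    rw [Matrix.transpose_mul, Matrix.transpose_transpose]
  obtain ⟨r, hr⟩ : ∃ r : ℝ, r = ∑ g : G, ∑ i, ∑ j, Complex.normSq ((rmat ρ g)ᵀ i j) := ⟨_, rfl⟩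
  have htr : (avgForm ρ (1 : Matrix (Fin n) (Fin n) ℂ)).trace = (r : ℂ) := by
    rw [hr, hS1, Matrix.trace_sum, Complex.ofReal_sum]
    refine Finset.sum_congr rfl fun g _ => ?_
    have h3 := trace_mul_cj_transpose ((rmat ρ g)ᵀ)
    rw [cj_transpose, Matrix.transpose_transpose, hR] at h3
    exact h3
  have hpos : 0 < r := by
    rw [hr]
    refine Finset.sum_pos' (fun g _ => normSq_sum_nonneg _) ⟨1, Finset.mem_univ _, ?_⟩
    apply normSq_sum_pos
    rw [rmat_one, Matrix.transpose_one]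
    exact one_ne_zero_mat hn
  have h1 := congrArg Matrix.trace hT
  rw [hsym, Matrix.trace_smul, smul_eq_mul, htr] at h1
  have hne : (r : ℂ) ≠ 0 := Complex.ofReal_ne_zero.mpr hpos.ne'
  have h2 : (1 : ℂ) * (r : ℂ) = fsInd ρ.character * (r : ℂ) := by rw [one_mul]; exact h1
  exact (mul_right_cancel₀ hne h2).symm

/-- the matrix of a real representation -/
noncomputable def rmatR (σ : Representation ℝ G (Fin n → ℝ)) (g : G) : Matrix (Fin n) (Fin n) ℝ :=
  LinearMap.toMatrix' (σ g)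

theorem rmatR_mul (σ : Representation ℝ G (Fin n → ℝ)) (g h : G) :
    rmatR σ (g * h) = rmatR σ g * rmatR σ h := by
  simp [rmatR, LinearMap.toMatrix'_mul]

theorem rmatR_one (σ : Representation ℝ G (Fin n → ℝ)) : rmatR σ 1 = 1 := by
  simp [rmatR]

theorem rmatR_trace (σ : Representation ℝ G (Fin n → ℝ)) (g : G) :
    (rmatR σ g).trace = LinearMap.trace ℝ (Fin n → ℝ) (σ g) := by
  unfold rmatR
  rw [LinearMap.trace_eq_matrix_trace ℝ (Pi.basisFun ℝ (Fin n)) (σ g),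
    LinearMap.toMatrix_eq_toMatrix']

/-- complexification of a real representation -/
noncomputable def cplxRep (σ : Representation ℝ G (Fin n → ℝ)) : Representation ℂ G (Fin n → ℂ) :=
  repOfMat (fun g => cplx (rmatR σ g))
    (by show cplx (rmatR σ 1) = 1; rw [rmatR_one, cplx_one])
    (fun g h => by
      show cplx (rmatR σ (g * h)) = cplx (rmatR σ g) * cplx (rmatR σ h)
      rw [rmatR_mul, cplx_mul])

theorem rmat_cplxRep (σ : Representation ℝ G (Fin n → ℝ)) (g : G) :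
    rmat (cplxRep σ) g = cplx (rmatR σ g) := rmat_repOfMat _ _ _ g

theorem cplxRep_character (σ : Representation ℝ G (Fin n → ℝ)) (g : G) :
    (cplxRep σ).character g = ((LinearMap.trace ℝ (Fin n → ℝ) (σ g) : ℝ) : ℂ) := by
  rw [← rmat_trace, rmat_cplxRep, cplx_trace, rmatR_trace]

theorem fsInd_eq_one_of_realRep [Fintype G] (χ : IrrCharacter G) {m : ℕ}
    (σ : Representation ℝ G (Fin m → ℝ))
    (hσ : ∀ g : G, ((LinearMap.trace ℝ (Fin m → ℝ) (σ g) : ℝ) : ℂ) = (χ : G → ℂ) g) :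
    fsInd (χ : G → ℂ) = 1 := by
  obtain ⟨n, ρ, hirr, hρ⟩ := χ.2
  have hchar : ρ.character = (cplxRep σ).character := by
    funext g
    rw [hρ, cplxRep_character, hσ]
  obtain ⟨φ⟩ := equiv_of_char_eq ρ (cplxRep σ) hchar
  haveI : (cplxRep σ).IsIrreducible := isIrreducible_of_equiv φ
  have h := fsInd_eq_one_of_cj_fixed (cplxRep σ) (fun g => by rw [rmat_cplxRep, cj_cplx])
  rw [← hchar, hρ] at h
  exact h

/-! ### indicator `1` gives a real structure -/

theorem trace_aux (A B C D E F : Matrix (Fin n) (Fin n) ℂ) :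
    (A * (B * C) * (D * (E * F))).trace = (F * A * B * (C * D * E)).trace := by
  rw [Matrix.mul_assoc F, Matrix.mul_assoc F, Matrix.trace_mul_comm F]
  simp only [Matrix.mul_assoc]

theorem real_intertwine [Fintype G] (ρ : Representation ℂ G (Fin n → ℂ))
    {S : Matrix (Fin n) (Fin n) ℂ} (hSdet : IsUnit S.det) (hS : IsInvForm ρ S) (g : G) :
    rmat ρ g * (S⁻¹ * ∑ h : G, (rmat ρ h)ᵀ * cj (rmat ρ h)) =
      (S⁻¹ * ∑ h : G, (rmat ρ h)ᵀ * cj (rmat ρ h)) * cj (rmat ρ g) := by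
  have hcancel : ∀ X : Matrix (Fin n) (Fin n) ℂ, (rmat ρ g⁻¹)ᵀ * ((rmat ρ g)ᵀ * X) = X := by
    intro X
    rw [← Matrix.mul_assoc, ← Matrix.transpose_mul, rmat_mul_inv, Matrix.transpose_one,
      Matrix.one_mul]
  have h1 : rmat ρ g * S⁻¹ = S⁻¹ * (rmat ρ g⁻¹)ᵀ := by
    calc rmat ρ g * S⁻¹ = S⁻¹ * (S * rmat ρ g) * S⁻¹ := by
          rw [← Matrix.mul_assoc, Matrix.nonsing_inv_mul _ hSdet, Matrix.one_mul]
      _ = S⁻¹ * ((rmat ρ g⁻¹)ᵀ * S) * S⁻¹ := by rw [hS.mul_rmat]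
      _ = S⁻¹ * (rmat ρ g⁻¹)ᵀ := by
          rw [Matrix.mul_assoc, Matrix.mul_assoc, Matrix.mul_nonsing_inv _ hSdet, Matrix.mul_one]
  have h4 : (∑ h : G, (rmat ρ h)ᵀ * cj (rmat ρ h)) * cj (rmat ρ g) =
      (rmat ρ g⁻¹)ᵀ * ∑ h : G, (rmat ρ h)ᵀ * cj (rmat ρ h) := by
    rw [Finset.sum_mul, Finset.mul_sum]
    refine Fintype.sum_equiv (Equiv.mulRight g) _ _ fun h => ?_
    show (rmat ρ h)ᵀ * cj (rmat ρ h) * cj (rmat ρ g) =
      (rmat ρ g⁻¹)ᵀ * ((rmat ρ (h * g))ᵀ * cj (rmat ρ (h * g)))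
    rw [rmat_mul, cj_mul, Matrix.transpose_mul, Matrix.mul_assoc ((rmat ρ g)ᵀ), hcancel]
    simp only [Matrix.mul_assoc]
  rw [← Matrix.mul_assoc, h1, Matrix.mul_assoc, Matrix.mul_assoc, h4]

theorem real_trace_pos [Fintype G] (ρ : Representation ℂ G (Fin n → ℂ)) (hn : 0 < n)
    {S : Matrix (Fin n) (Fin n) ℂ} (hSdet : IsUnit S.det) (hSt : Sᵀ = S) :
    ∃ r : ℝ, 0 < r ∧
      ((S⁻¹ * ∑ g : G, (rmat ρ g)ᵀ * cj (rmat ρ g)) *
        cj (S⁻¹ * ∑ g : G, (rmat ρ g)ᵀ * cj (rmat ρ g))).trace = (r : ℂ) := by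
  have hSit : (S⁻¹)ᵀ = S⁻¹ := by rw [Matrix.transpose_nonsing_inv, hSt]
  have hcjt : (cj S⁻¹)ᵀ = cj S⁻¹ := by rw [← cj_transpose, hSit]
  have hB : ∀ g h : G, (cj (rmat ρ h * S⁻¹ * (rmat ρ g)ᵀ))ᵀ =
      cj (rmat ρ g) * cj S⁻¹ * (cj (rmat ρ h))ᵀ := by
    intro g h
    simp only [cj_mul, Matrix.transpose_mul, cj_transpose, Matrix.transpose_transpose, hcjt,
      Matrix.mul_assoc]
  have hterm : ∀ g h : G,
      (S⁻¹ * ((rmat ρ g)ᵀ * cj (rmat ρ g)) * (cj S⁻¹ * ((cj (rmat ρ h))ᵀ * rmat ρ h))).trace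
      = ((∑ i, ∑ j, Complex.normSq ((rmat ρ h * S⁻¹ * (rmat ρ g)ᵀ) i j) : ℝ) : ℂ) := by
    intro g h
    rw [trace_aux]
    have h3 := trace_mul_cj_transpose (rmat ρ h * S⁻¹ * (rmat ρ g)ᵀ)
    rw [hB g h] at h3
    exact h3
  refine ⟨∑ g : G, ∑ h : G, ∑ i, ∑ j,
    Complex.normSq ((rmat ρ h * S⁻¹ * (rmat ρ g)ᵀ) i j), ?_, ?_⟩
  · refine Finset.sum_pos' (fun g _ => Finset.sum_nonneg fun h _ => normSq_sum_nonneg _)
      ⟨1, Finset.mem_univ _, ?_⟩
    refine Finset.sum_pos' (fun h _ => normSq_sum_nonneg _) ⟨1, Finset.mem_univ _, ?_⟩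
    apply normSq_sum_pos
    rw [rmat_one, Matrix.one_mul, Matrix.transpose_one, Matrix.mul_one]
    intro h0
    have h5 : S⁻¹ * S = 1 := Matrix.nonsing_inv_mul _ hSdet
    rw [h0, Matrix.zero_mul] at h5
    exact one_ne_zero_mat hn h5.symm
  · have hcjM : cj (S⁻¹ * ∑ g : G, (rmat ρ g)ᵀ * cj (rmat ρ g)) =
        cj S⁻¹ * ∑ h : G, (cj (rmat ρ h))ᵀ * rmat ρ h := by
      rw [cj_mul, cj_sum]
      congr 1
      refine Finset.sum_congr rfl fun h _ => ?_
      rw [cj_mul, cj_transpose, cj_cj]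
    rw [hcjM, Finset.mul_sum, Finset.sum_mul, Matrix.trace_sum, Complex.ofReal_sum]
    refine Finset.sum_congr rfl fun g _ => ?_
    rw [Finset.mul_sum, Finset.mul_sum, Matrix.trace_sum, Complex.ofReal_sum]
    refine Finset.sum_congr rfl fun h _ => ?_
    exact hterm g h

theorem schur_mat (ρ : Representation ℂ G (Fin n → ℂ)) [ρ.IsIrreducible]
    (C : Matrix (Fin n) (Fin n) ℂ) (hC : ∀ g : G, C * rmat ρ g = rmat ρ g * C) :
    C = (C.trace / (n : ℂ)) • (1 : Matrix (Fin n) (Fin n) ℂ) := by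
  have h := eq_smul_of_comm_of_irreducible ρ (Matrix.toLin' C) (fun g => by
    rw [← toLin'_rmat ρ g, ← Matrix.toLin'_mul, ← Matrix.toLin'_mul, hC])
  rw [trace_toLin'_eq, Module.finrank_fin_fun] at h
  apply Matrix.toLin'.injective
  rw [h, LinearEquiv.map_smul, Matrix.toLin'_one]

theorem exists_normalized {R : G → Matrix (Fin n) (Fin n) ℂ} {M : Matrix (Fin n) (Fin n) ℂ}
    (hM : ∀ g, R g * M = M * cj (R g)) {c : ℝ} (hc : 0 < c)
    (hC : M * cj M = (c : ℂ) • (1 : Matrix (Fin n) (Fin n) ℂ)) :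
    ∃ M' : Matrix (Fin n) (Fin n) ℂ, (∀ g, R g * M' = M' * cj (R g)) ∧ M' * cj M' = 1 := by
  obtain ⟨s, hs0, hs⟩ : ∃ s : ℝ, s ≠ 0 ∧ s * s = c :=
    ⟨Real.sqrt c, (Real.sqrt_pos.mpr hc).ne', Real.mul_self_sqrt hc.le⟩
  have h1 : s⁻¹ * s⁻¹ * c = 1 := by
    calc s⁻¹ * s⁻¹ * c = (s⁻¹ * s) * (s⁻¹ * s) := by rw [← hs]; ring
      _ = 1 := by rw [inv_mul_cancel₀ hs0, one_mul]
  have h2 : ((s⁻¹ : ℝ) : ℂ) * ((s⁻¹ : ℝ) : ℂ) * (c : ℂ) = 1 := by
    rw [← Complex.ofReal_mul, ← Complex.ofReal_mul, h1, Complex.ofReal_one]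
  refine ⟨((s⁻¹ : ℝ) : ℂ) • M, fun g => ?_, ?_⟩
  · rw [Matrix.mul_smul, hM, Matrix.smul_mul]
  · calc ((s⁻¹ : ℝ) : ℂ) • M * cj (((s⁻¹ : ℝ) : ℂ) • M)
        = (((s⁻¹ : ℝ) : ℂ) * ((s⁻¹ : ℝ) : ℂ)) • (M * cj M) := by
          rw [cj_smul, Complex.conj_ofReal, Matrix.smul_mul, Matrix.mul_smul, smul_smul]
      _ = 1 := by rw [hC, smul_smul, h2, one_smul]

theorem real_form_eq (M : Matrix (Fin n) (Fin n) ℂ) (hM : M * cj M = 1) (z : ℂ) :
    M * cj (starRingEnd ℂ z • (1 : Matrix (Fin n) (Fin n) ℂ) + z • M) =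
      starRingEnd ℂ z • (1 : Matrix (Fin n) (Fin n) ℂ) + z • M := by
  rw [cj_add, cj_smul, cj_smul, cj_one, Complex.conj_conj, Matrix.mul_add, Matrix.mul_smul,
    Matrix.mul_smul, Matrix.mul_one, hM, add_comm]

theorem exists_real_form {M : Matrix (Fin n) (Fin n) ℂ} (hM : M * cj M = 1) :
    ∃ T : Matrix (Fin n) (Fin n) ℂ, IsUnit T.det ∧ M * cj T = T := by
  classical
  obtain ⟨Mp, hMp⟩ : ∃ Mp : Matrix (Fin n) (Fin n) (Polynomial ℂ), Mp =
      ((1 : Polynomial ℂ) - Polynomial.C Complex.I * Polynomial.X) •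
        (1 : Matrix (Fin n) (Fin n) (Polynomial ℂ)) +
      ((1 : Polynomial ℂ) + Polynomial.C Complex.I * Polynomial.X) • M.map Polynomial.C :=
    ⟨_, rfl⟩
  have heval : ∀ w : ℂ, Polynomial.eval w Mp.det =
      (((1 : ℂ) - Complex.I * w) • (1 : Matrix (Fin n) (Fin n) ℂ) +
        ((1 : ℂ) + Complex.I * w) • M).det := by
    intro w
    have h1 := RingHom.map_det (Polynomial.evalRingHom w) Mp
    rw [Polynomial.coe_evalRingHom] at h1
    rw [h1]
    congr 1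
    ext i j
    rw [hMp]
    by_cases hij : i = j
    · subst hij
      simp
    · simp [Matrix.one_apply_ne hij]
  have hP : Mp.det ≠ 0 := by
    intro h0
    have h1 := heval Complex.I
    rw [h0, Polynomial.eval_zero, Complex.I_mul_I] at h1
    have h2 : ((1 : ℂ) - -1) = 2 := by norm_num
    have h3 : ((1 : ℂ) + -1) = 0 := by norm_num
    rw [h2, h3, zero_smul, add_zero, Matrix.det_smul, Matrix.det_one, mul_one] at h1
    exact (pow_ne_zero _ two_ne_zero) h1.symm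
  obtain ⟨t, ht⟩ : ∃ t : ℝ, Polynomial.eval (t : ℂ) Mp.det ≠ 0 := by
    by_contra hcon
    push Not at hcon
    apply hP
    apply Polynomial.eq_zero_of_infinite_isRoot
    refine Set.Infinite.mono ?_ (Set.infinite_range_of_injective Complex.ofReal_injective)
    rintro _ ⟨t, rfl⟩
    exact hcon t
  rw [heval] at ht
  refine ⟨((1 : ℂ) - Complex.I * t) • (1 : Matrix (Fin n) (Fin n) ℂ) +
    ((1 : ℂ) + Complex.I * t) • M, isUnit_iff_ne_zero.mpr ht, ?_⟩
  have hz : starRingEnd ℂ ((1 : ℂ) + Complex.I * t) = (1 : ℂ) - Complex.I * t := by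
    apply Complex.ext <;> simp
  have h5 := real_form_eq M hM ((1 : ℂ) + Complex.I * t)
  rw [hz] at h5
  exact h5

theorem cj_conj_eq {M T A : Matrix (Fin n) (Fin n) ℂ} (hT : IsUnit T.det) (hMT : M * cj T = T)
    (hMA : A * M = M * cj A) : cj (T⁻¹ * (A * T)) = T⁻¹ * (A * T) := by
  have h1 : T * (T⁻¹ * (A * T)) = A * T := Matrix.mul_nonsing_inv_cancel_left _ _ hT
  have h2 : T * cj (T⁻¹ * (A * T)) = A * T := by
    calc T * cj (T⁻¹ * (A * T)) = M * cj T * cj (T⁻¹ * (A * T)) := by rw [hMT]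
      _ = M * cj (T * (T⁻¹ * (A * T))) := by rw [cj_mul T, Matrix.mul_assoc]
      _ = M * cj (A * T) := by rw [h1]
      _ = A * M * cj T := by rw [cj_mul, ← Matrix.mul_assoc, hMA]
      _ = A * T := by rw [Matrix.mul_assoc, hMT]
  calc cj (T⁻¹ * (A * T)) = T⁻¹ * (T * cj (T⁻¹ * (A * T))) := by
        rw [Matrix.nonsing_inv_mul_cancel_left _ _ hT]
    _ = T⁻¹ * (A * T) := by rw [h2]

/-- real part of a matrix -/
noncomputable def reMat (A : Matrix (Fin n) (Fin n) ℂ) : Matrix (Fin n) (Fin n) ℝ :=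
  A.map Complex.re

theorem cplx_reMat {A : Matrix (Fin n) (Fin n) ℂ} (hA : cj A = A) : cplx (reMat A) = A := by
  ext i j
  have h : starRingEnd ℂ (A i j) = A i j := congrFun (congrFun hA i) j
  show ((A i j).re : ℂ) = A i j
  exact Complex.conj_eq_iff_re.mp h

theorem exists_realRep_of_cj_fixed (X : G → Matrix (Fin n) (Fin n) ℂ) (h1 : X 1 = 1)
    (hmul : ∀ g h, X (g * h) = X g * X h) (hX : ∀ g, cj (X g) = X g) :
    ∃ σ : Representation ℝ G (Fin n → ℝ),
      ∀ g, ((LinearMap.trace ℝ (Fin n → ℝ) (σ g) : ℝ) : ℂ) = (X g).trace := by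
  have hQ : ∀ g, cplx (reMat (X g)) = X g := fun g => cplx_reMat (hX g)
  have hQ1 : reMat (X 1) = 1 := by
    apply cplx_injective
    rw [hQ, h1, cplx_one]
  have hQmul : ∀ g h, reMat (X (g * h)) = reMat (X g) * reMat (X h) := by
    intro g h
    apply cplx_injective
    rw [cplx_mul, hQ, hQ, hQ, hmul]
  refine ⟨repOfMat (fun g => reMat (X g)) hQ1 hQmul, fun g => ?_⟩
  show ((LinearMap.trace ℝ (Fin n → ℝ) (Matrix.toLin' (reMat (X g))) : ℝ) : ℂ) = (X g).trace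
  rw [trace_toLin'_eq, ← cplx_trace, hQ]

theorem exists_realRep_of_fsInd_one [Fintype G] (ρ : Representation ℂ G (Fin n → ℂ))
    [ρ.IsIrreducible] (hν : fsInd ρ.character = 1) :
    ∃ σ : Representation ℝ G (Fin n → ℝ),
      ∀ g, ((LinearMap.trace ℝ (Fin n → ℝ) (σ g) : ℝ) : ℂ) = ρ.character g := by
  have hn := dim_pos_of_irreducible ρ
  have hreal : ∀ g : G, (ρ.character g).im = 0 := by
    rcases fs_cases ρ with h0 | ⟨_, h⟩
    · rw [hν] at h0; exact absurd h0 one_ne_zero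
    · exact h
  obtain ⟨S, hS0, hS⟩ := exists_invForm_of_real ρ hreal
  have hSt : Sᵀ = S := by
    have h := fs_transpose ρ hS
    rw [hν, one_smul] at h
    exact h
  have hSdet : IsUnit S.det :=
    (Matrix.isUnit_iff_isUnit_det _).mp (hS.eq_zero_or_isUnit.resolve_left hS0)
  obtain ⟨M, hMdef⟩ : ∃ M : Matrix (Fin n) (Fin n) ℂ,
      M = S⁻¹ * ∑ h : G, (rmat ρ h)ᵀ * cj (rmat ρ h) := ⟨_, rfl⟩
  have hM : ∀ g, rmat ρ g * M = M * cj (rmat ρ g) := by
    intro g; rw [hMdef]; exact real_intertwine ρ hSdet hS g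
  obtain ⟨r, hr, htr⟩ := real_trace_pos ρ hn hSdet hSt
  rw [← hMdef] at htr
  have hcomm : ∀ g : G, (M * cj M) * rmat ρ g = rmat ρ g * (M * cj M) := by
    intro g
    calc M * cj M * rmat ρ g = M * cj (M * cj (rmat ρ g)) := by
          rw [cj_mul, cj_cj, Matrix.mul_assoc]
      _ = M * cj (rmat ρ g * M) := by rw [hM]
      _ = rmat ρ g * M * cj M := by rw [cj_mul, ← Matrix.mul_assoc, hM]
      _ = rmat ρ g * (M * cj M) := by rw [Matrix.mul_assoc]
  have hC := schur_mat ρ (M * cj M) hcomm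
  rw [htr] at hC
  have hC' : M * cj M = (((r / n : ℝ)) : ℂ) • (1 : Matrix (Fin n) (Fin n) ℂ) := by
    rw [Complex.ofReal_div, Complex.ofReal_natCast]; exact hC
  obtain ⟨M', hM', hM'1⟩ := exists_normalized hM (div_pos hr (Nat.cast_pos.mpr hn)) hC'
  obtain ⟨T, hTdet, hT⟩ := exists_real_form hM'1
  obtain ⟨X, hX⟩ : ∃ X : G → Matrix (Fin n) (Fin n) ℂ, X = fun g => T⁻¹ * (rmat ρ g * T) :=
    ⟨_, rfl⟩
  have hXg : ∀ g, X g = T⁻¹ * (rmat ρ g * T) := fun g => by rw [hX]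
  have hX1 : X 1 = 1 := by
    rw [hXg, rmat_one, Matrix.one_mul, Matrix.nonsing_inv_mul _ hTdet]
  have hXmul : ∀ g h, X (g * h) = X g * X h := by
    intro g h
    rw [hXg, hXg, hXg]
    symm
    calc T⁻¹ * (rmat ρ g * T) * (T⁻¹ * (rmat ρ h * T))
        = T⁻¹ * (rmat ρ g * (T * (T⁻¹ * (rmat ρ h * T)))) := by simp only [Matrix.mul_assoc]
      _ = T⁻¹ * (rmat ρ g * (rmat ρ h * T)) := by
          rw [Matrix.mul_nonsing_inv_cancel_left _ _ hTdet]
      _ = T⁻¹ * (rmat ρ (g * h) * T) := by rw [rmat_mul, Matrix.mul_assoc]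
  have hXcj : ∀ g, cj (X g) = X g := by
    intro g
    rw [hXg]
    exact cj_conj_eq hTdet hT (hM' g)
  obtain ⟨σ, hσ⟩ := exists_realRep_of_cj_fixed X hX1 hXmul hXcj
  refine ⟨σ, fun g => ?_⟩
  rw [hσ, hXg, Matrix.trace_mul_comm, Matrix.mul_assoc, Matrix.mul_nonsing_inv _ hTdet,
    Matrix.mul_one, rmat_trace]

end Cfsg.Agent.Helper22
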