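import Mathlib
import Cfsg.Agent.Helper22.Rank3
import Cfsg.Agent.Helper22.RealRep
import Cfsg.Prelude.Def_Perm

/-!
# The centraliser algebra of a permutation representation: commutativity vs multiplicity-freeness
-/

set_option autoImplicit false

namespace Cfsg.Agent.Helper22

open Cfsg Cfsg.Agent.Helper24 Cfsg.Agent.Helper5 Matrix
open scoped Kronecker ComplexOrder

section CentAlg

variable {G : Type*} [Group G] [Fintype G] {Ω : Type*} [Fintype Ω] [DecidableEq Ω] [MulAction G Ω]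

/-- multiplicity-free implies that `G`-invariant matrices commute -/
theorem comm_of_multfree
    (hmf : ∀ χ : G → ℂ, IsIrrCharacter G χ →
      classInner (fun g : G => (Nat.card (MulAction.fixedBy Ω g) : ℂ)) χ = 0 ∨
      classInner (fun g : G => (Nat.card (MulAction.fixedBy Ω g) : ℂ)) χ = 1)
    {X Y : Matrix Ω Ω ℂ} (hX : IsGInv G X) (hY : IsGInv G Y) : X * Y = Y * X := by
  have hD : IsGInv G (X * Y - Y * X) := (hX.mul hY).sub (hY.mul hX)
  have htr := trace_eq_sum_cchi (G := G) ((X * Y - Y * X)ᴴ * (X * Y - Y * X))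
  have hzero : ∀ χ : IrrCharacter G,
      (χ : G → ℂ) 1 * cchi ((X * Y - Y * X)ᴴ * (X * Y - Y * X)) (χ : G → ℂ) = 0 := by
    intro χ
    by_cases h0 : cchi (1 : Matrix Ω Ω ℂ) (χ : G → ℂ) = 0
    · rw [cchi_zero_irr χ.2 h0, mul_zero]
    · have h1 : cchi (1 : Matrix Ω Ω ℂ) (χ : G → ℂ) = 1 := by
        rw [cchi_one_eq_classInner_star] at h0 ⊢
        rcases hmf _ (isIrrCharacter_star χ.2) with h | h
        · exact absurd h h0
        · exact h
      have hDz : cchi (X * Y - Y * X) (χ : G → ℂ) = 0 := by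
        rw [cchi_sub, cchi_mul_irr χ.2 h1 hY, cchi_mul_irr χ.2 h1 hX, mul_comm, sub_self]
      rw [cchi_mul_irr χ.2 h1 hD, hDz, mul_zero, mul_zero]
  rw [Finset.sum_eq_zero (fun χ _ => hzero χ)] at htr
  have h := Matrix.trace_conjTranspose_mul_self_eq_zero_iff.mp htr
  exact sub_eq_zero.mp h

theorem permMat_transpose_mul (g : G) :
    (permMat g : Matrix Ω Ω ℂ)ᵀ * (permMat g : Matrix Ω Ω ℂ) = 1 := by
  have h : (permMat g : Matrix Ω Ω ℂ)ᵀ = permMat g⁻¹ := by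
    ext α β
    rw [Matrix.transpose_apply, permMat_apply, permMat_apply]
    have hiff : g • α = β ↔ g⁻¹ • β = α := by
      constructor
      · rintro rfl; rw [inv_smul_smul]
      · rintro rfl; rw [smul_inv_smul]
    simp only [hiff]
  rw [h, ← permMat_mul, inv_mul_cancel, permMat_one]

variable {n : ℕ}

theorem kron_mul_bigPi (ρ : Representation ℂ G (Fin n → ℂ)) (g : G) :
    ((permMat g : Matrix Ω Ω ℂ) ⊗ₖ rmat ρ g) * bigPi ρ = bigPi ρ := by
  unfold bigPi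
  rw [Matrix.mul_smul, Finset.mul_sum]
  congr 1
  exact Fintype.sum_equiv (Equiv.mulLeft g) _ _ (fun h => by
    rw [← Matrix.mul_kronecker_mul, ← permMat_mul, ← rmat_mul]; rfl)

/-- un-vectorisation -/
def unvec (v : Ω × Fin n → ℂ) : Matrix (Fin n) Ω ℂ := Matrix.of fun j α => v (α, j)

omit [Fintype Ω] [DecidableEq Ω] in
theorem vec_unvec (v : Ω × Fin n → ℂ) : Matrix.vec (unvec v) = v := by
  funext ⟨α, j⟩
  rfl

theorem invariant_of_mem_range (ρ : Representation ℂ G (Fin n → ℂ)) (v : Ω × Fin n → ℂ)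
    (hv : v ∈ LinearMap.range (Matrix.toLin' (bigPi (Ω := Ω) ρ))) (g : G) :
    rmat ρ g * unvec v = unvec v * (permMat g : Matrix Ω Ω ℂ) := by
  obtain ⟨u, rfl⟩ := hv
  have hv : ((permMat g : Matrix Ω Ω ℂ) ⊗ₖ rmat ρ g) *ᵥ (Matrix.toLin' (bigPi ρ) u) =
      Matrix.toLin' (bigPi ρ) u := by
    rw [Matrix.toLin'_apply, Matrix.mulVec_mulVec, kron_mul_bigPi]
  have hvec := Matrix.kronecker_mulVec_vec (rmat ρ g) (unvec (Matrix.toLin' (bigPi ρ) u))
    (permMat g : Matrix Ω Ω ℂ)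
  rw [vec_unvec, hv] at hvec
  have h1 : rmat ρ g * unvec (Matrix.toLin' (bigPi ρ) u) * (permMat g : Matrix Ω Ω ℂ)ᵀ =
      unvec (Matrix.toLin' (bigPi ρ) u) := by
    apply Matrix.vec_inj.mp
    rw [← hvec, vec_unvec]
  calc rmat ρ g * unvec (Matrix.toLin' (bigPi ρ) u)
      = rmat ρ g * unvec (Matrix.toLin' (bigPi ρ) u) *
          ((permMat g : Matrix Ω Ω ℂ)ᵀ * (permMat g : Matrix Ω Ω ℂ)) := by
        rw [permMat_transpose_mul, Matrix.mul_one]
    _ = (rmat ρ g * unvec (Matrix.toLin' (bigPi ρ) u) * (permMat g : Matrix Ω Ω ℂ)ᵀ) *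
          (permMat g : Matrix Ω Ω ℂ) := (Matrix.mul_assoc _ _ _).symm
    _ = unvec (Matrix.toLin' (bigPi ρ) u) * (permMat g : Matrix Ω Ω ℂ) := by rw [h1]

/-- if the centraliser algebra is commutative, two intertwiners into an irreducible
representation are proportional -/
theorem intertwiner_unique (ρ : Representation ℂ G (Fin n → ℂ)) [ρ.IsIrreducible]
    (hcomm : ∀ X Y : Matrix Ω Ω ℂ, IsGInv G X → IsGInv G Y → X * Y = Y * X)
    (X₁ X₂ : Matrix (Fin n) Ω ℂ)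
    (h₁ : ∀ g : G, rmat ρ g * X₁ = X₁ * (permMat g : Matrix Ω Ω ℂ))
    (h₂ : ∀ g : G, rmat ρ g * X₂ = X₂ * (permMat g : Matrix Ω Ω ℂ))
    (hne : X₁ ≠ 0) : ∃ c : ℂ, X₂ = c • X₁ := by
  have hN : (Nat.card G : ℂ) ≠ 0 := Nat.cast_ne_zero.mpr Nat.card_pos.ne'
  have hn : (n : ℂ) ≠ 0 := Nat.cast_ne_zero.mpr (dim_pos_of_irreducible ρ).ne'
  obtain ⟨Y, hYdef⟩ : ∃ Y : Matrix Ω (Fin n) ℂ, Y = (Nat.card G : ℂ)⁻¹ •
      ∑ g : G, (permMat g : Matrix Ω Ω ℂ) * X₁ᴴ * rmat ρ g⁻¹ := ⟨_, rfl⟩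
  have hY : ∀ h : G, (permMat h : Matrix Ω Ω ℂ) * Y = Y * rmat ρ h := by
    intro h
    rw [hYdef, Matrix.mul_smul, Matrix.smul_mul, Matrix.mul_sum, Matrix.sum_mul]
    congr 1
    refine Fintype.sum_equiv (Equiv.mulLeft h) _ _ (fun g => ?_)
    show (permMat h : Matrix Ω Ω ℂ) * ((permMat g : Matrix Ω Ω ℂ) * X₁ᴴ * rmat ρ g⁻¹) =
      (permMat (h * g) : Matrix Ω Ω ℂ) * X₁ᴴ * rmat ρ (h * g)⁻¹ * rmat ρ h
    rw [permMat_mul, _root_.mul_inv_rev, Matrix.mul_assoc _ (rmat ρ (g⁻¹ * h⁻¹)) (rmat ρ h),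
      ← rmat_mul, inv_mul_cancel_right,
      Matrix.mul_assoc (permMat h : Matrix Ω Ω ℂ) (permMat g : Matrix Ω Ω ℂ) X₁ᴴ,
      Matrix.mul_assoc (permMat h : Matrix Ω Ω ℂ) ((permMat g : Matrix Ω Ω ℂ) * X₁ᴴ)
        (rmat ρ g⁻¹)]
  have hXY : ∀ (X : Matrix (Fin n) Ω ℂ),
      (∀ g : G, rmat ρ g * X = X * (permMat g : Matrix Ω Ω ℂ)) →
      X * Y = ((X * Y).trace / (n : ℂ)) • (1 : Matrix (Fin n) (Fin n) ℂ) := by
    intro X hX
    apply schur_mat ρ
    intro g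
    calc X * Y * rmat ρ g = X * (Y * rmat ρ g) := Matrix.mul_assoc _ _ _
      _ = X * ((permMat g : Matrix Ω Ω ℂ) * Y) := by rw [hY g]
      _ = X * (permMat g : Matrix Ω Ω ℂ) * Y := (Matrix.mul_assoc _ _ _).symm
      _ = rmat ρ g * X * Y := by rw [hX g]
      _ = rmat ρ g * (X * Y) := Matrix.mul_assoc _ _ _
  have htr1 : (X₁ * Y).trace = (X₁ * X₁ᴴ).trace := by
    rw [hYdef, Matrix.mul_smul, Matrix.trace_smul, Matrix.mul_sum, Matrix.trace_sum]
    have hterm : ∀ g : G,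
        (X₁ * ((permMat g : Matrix Ω Ω ℂ) * X₁ᴴ * rmat ρ g⁻¹)).trace = (X₁ * X₁ᴴ).trace := by
      intro g
      calc (X₁ * ((permMat g : Matrix Ω Ω ℂ) * X₁ᴴ * rmat ρ g⁻¹)).trace
          = (X₁ * (permMat g : Matrix Ω Ω ℂ) * X₁ᴴ * rmat ρ g⁻¹).trace := by
            rw [Matrix.mul_assoc X₁ (permMat g : Matrix Ω Ω ℂ) X₁ᴴ,
              Matrix.mul_assoc X₁ ((permMat g : Matrix Ω Ω ℂ) * X₁ᴴ) (rmat ρ g⁻¹)]
        _ = (rmat ρ g * X₁ * X₁ᴴ * rmat ρ g⁻¹).trace := by rw [h₁ g]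
        _ = (rmat ρ g⁻¹ * (rmat ρ g * X₁ * X₁ᴴ)).trace := Matrix.trace_mul_comm _ _
        _ = (X₁ * X₁ᴴ).trace := by
            rw [Matrix.mul_assoc (rmat ρ g), ← Matrix.mul_assoc (rmat ρ g⁻¹), rmat_inv_mul,
              Matrix.one_mul]
    rw [Finset.sum_congr rfl (fun g _ => hterm g), Finset.sum_const, Finset.card_univ,
      ← Nat.card_eq_fintype_card, smul_eq_mul, nsmul_eq_mul, ← mul_assoc, inv_mul_cancel₀ hN,
      one_mul]
  have hc1 : (X₁ * Y).trace ≠ 0 := by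
    rw [htr1]
    intro h0
    exact hne (Matrix.trace_mul_conjTranspose_self_eq_zero_iff.mp h0)
  obtain ⟨c₁, hc₁def⟩ : ∃ c : ℂ, c = (X₁ * Y).trace / (n : ℂ) := ⟨_, rfl⟩
  obtain ⟨c₂, hc₂def⟩ : ∃ c : ℂ, c = (X₂ * Y).trace / (n : ℂ) := ⟨_, rfl⟩
  have hc₁ne : c₁ ≠ 0 := by rw [hc₁def]; exact div_ne_zero hc1 hn
  have e₁ : X₁ * Y = c₁ • (1 : Matrix (Fin n) (Fin n) ℂ) := by rw [hc₁def]; exact hXY X₁ h₁
  have e₂ : X₂ * Y = c₂ • (1 : Matrix (Fin n) (Fin n) ℂ) := by rw [hc₂def]; exact hXY X₂ h₂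
  have hS : ∀ (X : Matrix (Fin n) Ω ℂ),
      (∀ g : G, rmat ρ g * X = X * (permMat g : Matrix Ω Ω ℂ)) → IsGInv G (Y * X) := by
    intro X hX
    apply isGInv_of_comm
    intro g
    calc Y * X * (permMat g : Matrix Ω Ω ℂ) = Y * (X * (permMat g : Matrix Ω Ω ℂ)) :=
          Matrix.mul_assoc _ _ _
      _ = Y * (rmat ρ g * X) := by rw [hX g]
      _ = Y * rmat ρ g * X := (Matrix.mul_assoc _ _ _).symm
      _ = (permMat g : Matrix Ω Ω ℂ) * Y * X := by rw [hY g]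
      _ = (permMat g : Matrix Ω Ω ℂ) * (Y * X) := Matrix.mul_assoc _ _ _
  have hcm := hcomm (Y * X₁) (Y * X₂) (hS X₁ h₁) (hS X₂ h₂)
  have h3 : X₁ * (Y * X₁ * (Y * X₂)) = X₁ * (Y * X₂ * (Y * X₁)) := by rw [hcm]
  have h4 : X₁ * (Y * X₁ * (Y * X₂)) = (c₁ * c₁) • X₂ := by
    calc X₁ * (Y * X₁ * (Y * X₂)) = (X₁ * Y) * ((X₁ * Y) * X₂) := by
          rw [Matrix.mul_assoc X₁ Y (X₁ * Y * X₂), Matrix.mul_assoc X₁ Y X₂,
            ← Matrix.mul_assoc Y X₁ (Y * X₂)]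
      _ = (c₁ * c₁) • X₂ := by
          rw [e₁, Matrix.smul_mul, Matrix.one_mul, Matrix.smul_mul, Matrix.one_mul, smul_smul]
  have h5 : X₁ * (Y * X₂ * (Y * X₁)) = (c₁ * c₂) • X₁ := by
    calc X₁ * (Y * X₂ * (Y * X₁)) = (X₁ * Y) * ((X₂ * Y) * X₁) := by
          rw [Matrix.mul_assoc X₁ Y (X₂ * Y * X₁), Matrix.mul_assoc X₂ Y X₁,
            ← Matrix.mul_assoc Y X₂ (Y * X₁)]
      _ = (c₁ * c₂) • X₁ := by
          rw [e₁, e₂, Matrix.smul_mul, Matrix.one_mul, Matrix.smul_mul, Matrix.one_mul, smul_smul]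
  rw [h4, h5] at h3
  refine ⟨c₂ / c₁, ?_⟩
  have h6 : X₂ = (c₁ * c₁)⁻¹ • ((c₁ * c₁) • X₂) := by
    rw [smul_smul, inv_mul_cancel₀ (mul_ne_zero hc₁ne hc₁ne), one_smul]
  rw [h6, h3, smul_smul]
  congr 1
  field_simp

theorem finrank_range_bigPi_le_one (ρ : Representation ℂ G (Fin n → ℂ)) [ρ.IsIrreducible]
    (hcomm : ∀ X Y : Matrix Ω Ω ℂ, IsGInv G X → IsGInv G Y → X * Y = Y * X) :
    Module.finrank ℂ (LinearMap.range (Matrix.toLin' (bigPi (Ω := Ω) ρ))) ≤ 1 := by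
  by_contra hcon
  push Not at hcon
  obtain ⟨x, hx⟩ := Module.finrank_pos_iff_exists_ne_zero.mp
    (by omega : 0 < Module.finrank ℂ (LinearMap.range (Matrix.toLin' (bigPi (Ω := Ω) ρ))))
  obtain ⟨y, hli⟩ := exists_linearIndependent_pair_of_one_lt_finrank hcon hx
  have h1 := invariant_of_mem_range ρ (x : Ω × Fin n → ℂ) x.2
  have h2 := invariant_of_mem_range ρ (y : Ω × Fin n → ℂ) y.2
  have hx0 : unvec (x : Ω × Fin n → ℂ) ≠ 0 := by
    intro h0
    apply hx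
    apply Subtype.ext
    have h := congrArg Matrix.vec h0
    rw [vec_unvec] at h
    rw [h]; rfl
  obtain ⟨c, hc⟩ := intertwiner_unique ρ hcomm _ _ h1 h2 hx0
  have hy : (y : Ω × Fin n → ℂ) = c • (x : Ω × Fin n → ℂ) := by
    have h := congrArg Matrix.vec hc
    rw [vec_unvec, Matrix.vec_smul, vec_unvec] at h
    exact h
  have hdep := LinearIndependent.pair_iff.mp hli (-c) 1 (by
    apply Subtype.ext
    rw [Submodule.coe_add, Submodule.coe_smul, Submodule.coe_smul, hy]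
    simp)
  exact one_ne_zero hdep.2

/-- commuting centraliser algebra implies multiplicity-free -/
theorem multfree_of_comm
    (hcomm : ∀ X Y : Matrix Ω Ω ℂ, IsGInv G X → IsGInv G Y → X * Y = Y * X)
    (χ : G → ℂ) (hχ : IsIrrCharacter G χ) :
    classInner (fun g : G => (Nat.card (MulAction.fixedBy Ω g) : ℂ)) χ = 0 ∨
      classInner (fun g : G => (Nat.card (MulAction.fixedBy Ω g) : ℂ)) χ = 1 := by
  obtain ⟨n, ρ, hirr, hρ⟩ := hχ
  haveI := hirr
  have hle := finrank_range_bigPi_le_one (Ω := Ω) ρ hcomm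
  have hE := bigPi_idem (Ω := Ω) ρ
  have he := isIdempotentElem_toLin' _ hE
  have hproj := LinearMap.IsIdempotentElem.isProj_range _ he
  have htr := hproj.trace
  rw [trace_toLin'_gen, trace_bigPi, hρ, cchi_one_eq_conj] at htr
  have h2 : classInner (fun g : G => (Nat.card (MulAction.fixedBy Ω g) : ℂ)) χ =
      (Module.finrank ℂ (LinearMap.range (Matrix.toLin' (bigPi (Ω := Ω) ρ))) : ℂ) := by
    have h := congrArg (starRingEnd ℂ) htr
    rwa [Complex.conj_conj, Complex.conj_natCast] at h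
  rcases Nat.le_one_iff_eq_zero_or_eq_one.mp hle with h | h
  · left; rw [h2, h, Nat.cast_zero]
  · right; rw [h2, h, Nat.cast_one]

theorem toMatrix'_permRep (g : G) :
    LinearMap.toMatrix' (Cfsg.permRep ℂ G Ω g) = (permMat g : Matrix Ω Ω ℂ) := by
  ext α β
  rw [LinearMap.toMatrix'_apply, permMat_apply]
  show (Pi.single β (1 : ℂ) : Ω → ℂ) (g⁻¹ • α) = if g • β = α then 1 else 0
  rw [Pi.single_apply]
  have hiff : g⁻¹ • α = β ↔ g • β = α := by
    constructor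
    · rintro rfl; rw [smul_inv_smul]
    · rintro rfl; rw [inv_smul_smul]
  simp only [hiff]

theorem mem_inv_iff (S : (Ω → ℂ) →ₗ[ℂ] (Ω → ℂ)) :
    S ∈ ((Cfsg.permRep ℂ G Ω).linHom (Cfsg.permRep ℂ G Ω)).invariants ↔
      IsGInv G (LinearMap.toMatrix' S) := by
  rw [Representation.mem_invariants]
  constructor
  · intro h
    apply isGInv_of_comm
    intro g
    have hg := h g
    rw [Representation.linHom_apply] at hg
    have hm := congrArg LinearMap.toMatrix' hg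
    rw [LinearMap.toMatrix'_comp, LinearMap.toMatrix'_comp, toMatrix'_permRep,
      toMatrix'_permRep] at hm
    calc LinearMap.toMatrix' S * (permMat g : Matrix Ω Ω ℂ)
        = ((permMat g : Matrix Ω Ω ℂ) * (LinearMap.toMatrix' S * (permMat g⁻¹ : Matrix Ω Ω ℂ))) *
            (permMat g : Matrix Ω Ω ℂ) := by
          rw [hm]
      _ = (permMat g : Matrix Ω Ω ℂ) * LinearMap.toMatrix' S *
            ((permMat g⁻¹ : Matrix Ω Ω ℂ) * (permMat g : Matrix Ω Ω ℂ)) := by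
          rw [Matrix.mul_assoc (permMat g : Matrix Ω Ω ℂ)
              (LinearMap.toMatrix' S * (permMat g⁻¹ : Matrix Ω Ω ℂ)) (permMat g : Matrix Ω Ω ℂ),
            Matrix.mul_assoc (LinearMap.toMatrix' S) (permMat g⁻¹ : Matrix Ω Ω ℂ)
              (permMat g : Matrix Ω Ω ℂ),
            ← Matrix.mul_assoc (permMat g : Matrix Ω Ω ℂ) (LinearMap.toMatrix' S)
              ((permMat g⁻¹ : Matrix Ω Ω ℂ) * (permMat g : Matrix Ω Ω ℂ))]
      _ = (permMat g : Matrix Ω Ω ℂ) * LinearMap.toMatrix' S := by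
          rw [← permMat_mul, inv_mul_cancel, permMat_one, Matrix.mul_one]
  · intro hM g
    rw [Representation.linHom_apply]
    apply LinearMap.toMatrix'.injective
    rw [LinearMap.toMatrix'_comp, LinearMap.toMatrix'_comp, toMatrix'_permRep,
      toMatrix'_permRep, ← Matrix.mul_assoc, ← hM.comm g, Matrix.mul_assoc, ← permMat_mul,
      mul_inv_cancel, permMat_one, Matrix.mul_one]

end CentAlg

end Cfsg.Agent.Helper22
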