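import Mathlib

/-!
# Landau's theorem (helper22)

* `unit_fraction_bound`: for fixed `k` and `q > 0`, the entries of a multiset of `k` positive
  integers whose reciprocals sum to `q` are bounded.
* `landau_classes`: the order of a finite group is bounded in terms of its number of conjugacy
  classes.
-/

set_option autoImplicit false

namespace Cfsg.Agent.Helper22

universe u

theorem unit_fraction_bound : ∀ (k : ℕ) (q : ℚ), 0 < q → ∃ N : ℕ, ∀ s : Multiset ℕ,
    Multiset.card s = k → (∀ n ∈ s, 0 < n) →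
    (s.map (fun n : ℕ => (1 : ℚ) / (n : ℚ))).sum = q → ∀ n ∈ s, n ≤ N := by
  intro k
  induction k with
  | zero =>
    intro q _
    refine ⟨0, fun s hs _ _ n hn => ?_⟩
    rw [Multiset.card_eq_zero.mp hs] at hn
    exact absurd hn (Multiset.notMem_zero n)
  | succ k ih =>
    intro q hq
    classical
    obtain ⟨m, hm⟩ : ∃ m : ℕ, m = ⌈((k : ℚ) + 1) / q⌉₊ := ⟨_, rfl⟩
    obtain ⟨f, hf⟩ : ∃ f : ℕ → ℕ, ∀ j : ℕ, 0 < q - 1 / (j : ℚ) → ∀ t : Multiset ℕ,
        Multiset.card t = k → (∀ n ∈ t, 0 < n) →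
        (t.map (fun n : ℕ => (1 : ℚ) / (n : ℚ))).sum = q - 1 / (j : ℚ) →
        ∀ n ∈ t, n ≤ f j := by
      have h : ∀ j : ℕ, ∃ N : ℕ, 0 < q - 1 / (j : ℚ) → ∀ t : Multiset ℕ,
          Multiset.card t = k → (∀ n ∈ t, 0 < n) →
          (t.map (fun n : ℕ => (1 : ℚ) / (n : ℚ))).sum = q - 1 / (j : ℚ) →
          ∀ n ∈ t, n ≤ N := by
        intro j
        by_cases hj : 0 < q - 1 / (j : ℚ)
        · obtain ⟨N, hN⟩ := ih (q - 1 / (j : ℚ)) hj
          exact ⟨N, fun _ => hN⟩
        · exact ⟨0, fun h => absurd h hj⟩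
      choose f hf using h
      exact ⟨f, hf⟩
    refine ⟨m + ∑ j ∈ Finset.range (m + 1), f j, ?_⟩
    intro s hs hpos hsum n hn
    have hne : s.toFinset.Nonempty := ⟨n, Multiset.mem_toFinset.mpr hn⟩
    obtain ⟨j, hj, hmin⟩ := Finset.exists_min_image s.toFinset id hne
    rw [Multiset.mem_toFinset] at hj
    have hmin' : ∀ x ∈ s, j ≤ x := fun x hx => hmin x (Multiset.mem_toFinset.mpr hx)
    have hjpos : 0 < j := hpos j hj
    have hjq : (0 : ℚ) < (j : ℚ) := Nat.cast_pos.mpr hjpos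
    have hj0 : (j : ℚ) ≠ 0 := hjq.ne'
    have hjm : j ≤ m := by
      have h1 : (s.map (fun n : ℕ => (1 : ℚ) / (n : ℚ))).sum ≤
          Multiset.card (s.map (fun n : ℕ => (1 : ℚ) / (n : ℚ))) • ((1 : ℚ) / (j : ℚ)) := by
        refine Multiset.sum_le_card_nsmul _ _ ?_
        intro x hx
        obtain ⟨y, hy, rfl⟩ := Multiset.mem_map.mp hx
        exact one_div_le_one_div_of_le hjq (Nat.cast_le.mpr (hmin' y hy))
      rw [Multiset.card_map, hs, hsum, nsmul_eq_mul] at h1
      have h2 : (j : ℚ) ≤ ((k : ℚ) + 1) / q := by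
        rw [le_div_iff₀ hq]
        have h3 : q * (j : ℚ) ≤ ((k + 1 : ℕ) : ℚ) * (1 / (j : ℚ)) * (j : ℚ) :=
          mul_le_mul_of_nonneg_right h1 hjq.le
        have h4 : ((k + 1 : ℕ) : ℚ) * (1 / (j : ℚ)) * (j : ℚ) = (k : ℚ) + 1 := by
          rw [mul_assoc, one_div, inv_mul_cancel₀ hj0, mul_one]
          exact Nat.cast_succ k
        linarith
      rw [hm]
      exact Nat.cast_le.mp (h2.trans (Nat.le_ceil _))
    obtain ⟨t, rfl⟩ := Multiset.exists_cons_of_mem hj
    rw [Multiset.card_cons] at hs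
    have hts : Multiset.card t = k := Nat.succ_injective hs
    rw [Multiset.map_cons, Multiset.sum_cons] at hsum
    have hsum' : (1 : ℚ) / (j : ℚ) + (t.map (fun n : ℕ => (1 : ℚ) / (n : ℚ))).sum = q := hsum
    have htsum : (t.map (fun n : ℕ => (1 : ℚ) / (n : ℚ))).sum = q - 1 / (j : ℚ) := by
      linarith
    have hjN : j ≤ m + ∑ j ∈ Finset.range (m + 1), f j := hjm.trans (Nat.le_add_right _ _)
    rcases Multiset.mem_cons.mp hn with hnj | hnt
    · rw [hnj]; exact hjN
    · have htpos : ∀ x ∈ t, 0 < x := fun x hx => hpos x (Multiset.mem_cons_of_mem hx)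
      have hpos' : 0 < q - 1 / (j : ℚ) := by
        rw [← htsum]
        have h5 : ∀ x ∈ t.map (fun n : ℕ => (1 : ℚ) / (n : ℚ)), (0 : ℚ) ≤ x := by
          intro x hx
          obtain ⟨y, hy, rfl⟩ := Multiset.mem_map.mp hx
          show (0 : ℚ) ≤ 1 / (y : ℚ)
          positivity
        have h6 : (1 : ℚ) / (n : ℚ) ≤ (t.map (fun n : ℕ => (1 : ℚ) / (n : ℚ))).sum :=
          Multiset.single_le_sum h5 _ (Multiset.mem_map_of_mem _ hnt)
        have h7 : (0 : ℚ) < 1 / (n : ℚ) := by
          have : (0 : ℚ) < (n : ℚ) := Nat.cast_pos.mpr (htpos n hnt)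
          positivity
        linarith
      have h8 := hf j hpos' t hts htpos htsum n hnt
      have h9 : f j ≤ ∑ j ∈ Finset.range (m + 1), f j :=
        Finset.single_le_sum (f := f) (fun i _ => Nat.zero_le _)
          (Finset.mem_range.mpr (Nat.lt_succ_of_le hjm))
      exact h8.trans (h9.trans (Nat.le_add_left _ _))

/-- **Landau's theorem**: the order of a finite group is bounded in terms of the number of its
conjugacy classes. -/
theorem landau_classes (k : ℕ) : ∃ N : ℕ, ∀ (G : Type u) [Group G] [Finite G],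
    Nat.card (ConjClasses G) ≤ k → Nat.card G ≤ N := by
  classical
  choose F hF using fun k' : ℕ => unit_fraction_bound k' 1 one_pos
  refine ⟨∑ i ∈ Finset.range (k + 1), F i, ?_⟩
  intro G _ _ hk
  haveI := Fintype.ofFinite G
  haveI : Fintype (ConjClasses G) := Fintype.ofFinite _
  obtain ⟨s, hs⟩ : ∃ s : Multiset ℕ, s = (Finset.univ : Finset (ConjClasses G)).val.map
      (fun C : ConjClasses G => Nat.card G / C.carrier.ncard) := ⟨_, rfl⟩
  have hdvd : ∀ C : ConjClasses G, C.carrier.ncard ∣ Nat.card G := by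
    intro C
    obtain ⟨g, rfl⟩ := ConjClasses.mk_surjective C
    rw [← ConjAct.orbit_eq_carrier_conjClasses, ← MulAction.index_stabilizer]
    exact Subgroup.index_dvd_card _
  have hcpos : ∀ C : ConjClasses G, 0 < C.carrier.ncard := fun C =>
    Nat.pos_of_dvd_of_pos (hdvd C) Nat.card_pos
  have hcard : Multiset.card s = Nat.card (ConjClasses G) := by
    rw [hs, Multiset.card_map, Nat.card_eq_fintype_card]
    rfl
  have hpos : ∀ n ∈ s, 0 < n := by
    intro n hn
    rw [hs] at hn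
    obtain ⟨C, -, rfl⟩ := Multiset.mem_map.mp hn
    exact Nat.div_pos (Nat.le_of_dvd Nat.card_pos (hdvd C)) (hcpos C)
  have hclass : ∑ C : ConjClasses G, C.carrier.ncard = Nat.card G := by
    rw [← finsum_eq_sum_of_fintype]
    exact Group.sum_card_conj_classes_eq_card G
  have hG0 : (Nat.card G : ℚ) ≠ 0 := Nat.cast_ne_zero.mpr Nat.card_pos.ne'
  have hsum : (s.map (fun n : ℕ => (1 : ℚ) / (n : ℚ))).sum = 1 := by
    rw [hs, Multiset.map_map]
    show ∑ C : ConjClasses G, (1 : ℚ) / ((Nat.card G / C.carrier.ncard : ℕ) : ℚ) = 1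
    have h1 : ∀ C ∈ (Finset.univ : Finset (ConjClasses G)),
        (1 : ℚ) / ((Nat.card G / C.carrier.ncard : ℕ) : ℚ) =
          (C.carrier.ncard : ℚ) / (Nat.card G : ℚ) := by
      intro C _
      rw [Nat.cast_div (hdvd C) (Nat.cast_ne_zero.mpr (hcpos C).ne'), one_div_div]
    rw [Finset.sum_congr rfl h1, ← Finset.sum_div, ← Nat.cast_sum, hclass, div_self hG0]
  have h1c : (ConjClasses.mk (1 : G)).carrier = {1} := by
    ext a
    rw [ConjClasses.mem_carrier_iff_mk_eq, ConjClasses.mk_eq_mk_iff_isConj, isConj_one_left,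
      Set.mem_singleton_iff]
  have hmem : Nat.card G ∈ s := by
    rw [hs]
    exact Multiset.mem_map.mpr ⟨ConjClasses.mk 1, Finset.mem_univ _, by
      rw [h1c, Set.ncard_singleton, Nat.div_one]⟩
  have h2 := hF (Multiset.card s) s rfl hpos hsum (Nat.card G) hmem
  have h3 : F (Multiset.card s) ≤ ∑ i ∈ Finset.range (k + 1), F i :=
    Finset.single_le_sum (f := F) (fun i _ => Nat.zero_le _)
      (Finset.mem_range.mpr (by rw [hcard]; exact Nat.lt_succ_of_le hk))
  exact h2.trans h3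

end Cfsg.Agent.Helper22
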