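import Mathlib
import Cfsg.Agent.Helper21.O504D2
import Cfsg.Agent.Helper1.Frob

/-!
# Piece [D1] of S1011: a non-abelian involution centralizer of order 8
-/

set_option autoImplicit false

namespace Cfsg.Agent.Helper22.O504D1

open Pointwise

variable {G : Type*} [Group G] [Finite G] [IsSimpleGroup G]

theorem nonab_facts (h : Nat.card G = 504)
    (hcen : ∀ u : G, orderOf u = 2 →
      ∃ T : Sylow 2 G, (T : Subgroup G) ≤ Subgroup.centralizer ({u} : Set G))
    (t : G) (ht : orderOf t = 2) (T₀ : Sylow 2 G)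
    (hT₀ : Subgroup.centralizer ({t} : Set G) = (T₀ : Subgroup G))
    (hna : ¬ ∀ a ∈ (T₀ : Subgroup G), ∀ b ∈ (T₀ : Subgroup G), a * b = b * a) :
    (∀ u : G, orderOf u = 2 → ∃ g : G, g * t * g⁻¹ = u) ∧
    (∀ g ∈ (T₀ : Subgroup G), g ^ 2 = 1 ∨ g ^ 2 = t) ∧ ∃ v : G, v ^ 2 = t := by
  haveI : Fact (Nat.Prime 2) := ⟨Nat.prime_two⟩
  have h8 : Nat.card ↥(T₀ : Subgroup G) = 8 := Cfsg.Agent.Helper21.O504D2.card_syl2 h T₀
  have htT : t ∈ (T₀ : Subgroup G) := by
    rw [← hT₀, Subgroup.mem_centralizer_iff]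
    intro x hx
    rw [Set.mem_singleton_iff] at hx
    rw [hx]
  have htc : ∀ a ∈ (T₀ : Subgroup G), t * a = a * t := by
    intro a ha
    rw [← hT₀, Subgroup.mem_centralizer_iff] at ha
    exact ha t (Set.mem_singleton t)
  have ht1 : t ≠ 1 := by
    intro h1
    rw [h1, orderOf_one] at ht
    exact absurd ht (by norm_num)
  obtain ⟨Z, hZ⟩ : ∃ Z : Subgroup ↥(T₀ : Subgroup G),
      Z = Subgroup.center ↥(T₀ : Subgroup G) := ⟨_, rfl⟩
  have hZmem : ∀ z : ↥(T₀ : Subgroup G), z ∈ Z ↔ ∀ g : ↥(T₀ : Subgroup G), g * z = z * g := by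
    intro z; rw [hZ, Subgroup.mem_center_iff]
  have hcomm_of : (∀ a b : ↥(T₀ : Subgroup G), a * b = b * a) → False := by
    intro hc
    apply hna
    intro a ha b hb
    exact congrArg Subtype.val (hc ⟨a, ha⟩ ⟨b, hb⟩)
  haveI hZn : Z.Normal := by rw [hZ]; infer_instance
  have hker : (QuotientGroup.mk' Z).ker ≤ Subgroup.center ↥(T₀ : Subgroup G) := by
    rw [QuotientGroup.ker_mk', hZ]
  have hZcard : Nat.card Z = 2 := by
    have hdvd : Nat.card Z ∣ 2 ^ 3 := by
      have := Subgroup.card_subgroup_dvd_card Z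
      rw [h8] at this
      exact this
    obtain ⟨j, hj, hcj⟩ := (Nat.dvd_prime_pow Nat.prime_two).mp hdvd
    have hnt : Nontrivial ↥(T₀ : Subgroup G) := by
      rw [← Finite.one_lt_card_iff_nontrivial, h8]; norm_num
    have hZnt : Nontrivial Z := by
      rw [hZ]; exact (T₀.isPGroup').center_nontrivial
    have h1 : 1 < Nat.card Z := Finite.one_lt_card_iff_nontrivial.mpr hZnt
    interval_cases j
    · rw [hcj] at h1; norm_num at h1
    · rw [hcj]; norm_num
    · exfalso
      have hmi : 2 ^ 2 * Z.index = 8 := by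
        rw [← hcj, ← h8]; exact Subgroup.card_mul_index Z
      have hidx : Z.index = 2 := by omega
      have hq : Nat.card (↥(T₀ : Subgroup G) ⧸ Z) = 2 := by
        rw [← Subgroup.index_eq_card]; exact hidx
      haveI : IsCyclic (↥(T₀ : Subgroup G) ⧸ Z) := isCyclic_of_prime_card hq
      exact hcomm_of (commutative_of_cyclic_center_quotient (QuotientGroup.mk' Z) hker)
    · exfalso
      have htop : Z = ⊤ := (Subgroup.card_eq_iff_eq_top Z).mp (by rw [hcj, h8]; norm_num)
      apply hcomm_of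
      intro a b
      have hb : b ∈ Z := by rw [htop]; exact Subgroup.mem_top b
      exact (hZmem b).mp hb a
  obtain ⟨t', ht'⟩ : ∃ t' : ↥(T₀ : Subgroup G), (t' : G) = t := ⟨⟨t, htT⟩, rfl⟩
  have ht'1 : t' ≠ 1 := by
    intro hh
    apply ht1
    rw [← ht', hh]; rfl
  have ht'Z : t' ∈ Z := by
    rw [hZmem]
    intro g
    apply Subtype.ext
    show (g : G) * (t' : G) = (t' : G) * (g : G)
    rw [ht']
    exact (htc g g.2).symm
  have hZ2 : ∀ z ∈ Z, z = 1 ∨ z = t' := by
    intro z hz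
    obtain ⟨y, -, hy⟩ := (Nat.card_eq_two_iff' (1 : Z)).mp hZcard
    by_cases hz1 : z = 1
    · exact Or.inl hz1
    · right
      have e1 : (⟨z, hz⟩ : Z) = y := hy _ (fun hh => hz1 (congrArg Subtype.val hh))
      have e2 : (⟨t', ht'Z⟩ : Z) = y := hy _ (fun hh => ht'1 (congrArg Subtype.val hh))
      exact congrArg Subtype.val (e1.trans e2.symm)
  have hsqZ : ∀ g : ↥(T₀ : Subgroup G), g ^ 2 ∈ Z := by
    intro g
    have hq4 : Nat.card (↥(T₀ : Subgroup G) ⧸ Z) = 4 := by
      rw [← Subgroup.index_eq_card]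
      have := Subgroup.card_mul_index Z
      rw [hZcard, h8] at this
      omega
    have hncyc : ¬ IsCyclic (↥(T₀ : Subgroup G) ⧸ Z) := by
      intro hcyc
      haveI := hcyc
      exact hcomm_of (commutative_of_cyclic_center_quotient (QuotientGroup.mk' Z) hker)
    have ho : orderOf (QuotientGroup.mk g : ↥(T₀ : Subgroup G) ⧸ Z) ∣ 2 ^ 2 := by
      have := orderOf_dvd_natCard (QuotientGroup.mk g : ↥(T₀ : Subgroup G) ⧸ Z)
      rw [hq4] at this
      exact this
    have ho4 : orderOf (QuotientGroup.mk g : ↥(T₀ : Subgroup G) ⧸ Z) ≠ 4 := by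
      intro h4
      exact hncyc (isCyclic_of_orderOf_eq_card _ (by rw [h4, hq4]))
    have ho2 : orderOf (QuotientGroup.mk g : ↥(T₀ : Subgroup G) ⧸ Z) ∣ 2 := by
      obtain ⟨j, hj, hcj⟩ := (Nat.dvd_prime_pow Nat.prime_two).mp ho
      interval_cases j
      · rw [hcj]; norm_num
      · rw [hcj]; norm_num
      · exact absurd (by rw [hcj]; norm_num) ho4
    have h5 := orderOf_dvd_iff_pow_eq_one.mp ho2
    rw [← QuotientGroup.mk_pow] at h5
    exact (QuotientGroup.eq_one_iff _).mp h5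
  have hsq : ∀ g ∈ (T₀ : Subgroup G), g ^ 2 = 1 ∨ g ^ 2 = t := by
    intro g hg
    rcases hZ2 _ (hsqZ ⟨g, hg⟩) with h1 | h1
    · left
      have h2 := congrArg Subtype.val h1
      exact h2
    · right
      have h2 := congrArg Subtype.val h1
      rw [ht'] at h2
      exact h2
  have hv : ∃ v : G, v ^ 2 = t := by
    by_contra hno
    push Not at hno
    apply hna
    intro a ha b hb
    have e1 : a ^ 2 = 1 := (hsq a ha).resolve_right (hno a)
    have e2 : b ^ 2 = 1 := (hsq b hb).resolve_right (hno b)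
    have e3 : (a * b) ^ 2 = 1 :=
      (hsq (a * b) ((T₀ : Subgroup G).mul_mem ha hb)).resolve_right (hno (a * b))
    have e1' : a * a = 1 := by rw [← pow_two]; exact e1
    have e2' : b * b = 1 := by rw [← pow_two]; exact e2
    have e3' : a * b * (a * b) = 1 := by rw [← pow_two]; exact e3
    calc a * b = a * (a * b * (a * b)) * b := by rw [e3', mul_one]
      _ = (a * a) * (b * a) * (b * b) := by simp only [mul_assoc]
      _ = b * a := by rw [e1', e2', one_mul, mul_one]
  refine ⟨?_, hsq, hv⟩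
  intro u hu
  obtain ⟨T', hT'⟩ := hcen u hu
  have hcu : ∀ x ∈ (T' : Subgroup G), u * x = x * u := by
    intro x hx
    have h1 := hT' hx
    rw [Subgroup.mem_centralizer_iff] at h1
    exact h1 u (Set.mem_singleton u)
  have hpg : IsPGroup 2 (Subgroup.zpowers u) := by
    apply IsPGroup.of_card (n := 1)
    rw [Nat.card_zpowers, hu, pow_one]
  have huN : u ∈ Subgroup.normalizer ((T' : Subgroup G) : Set G) := by
    rw [Subgroup.mem_normalizer_iff]
    intro x
    constructor
    · intro hx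
      have e : u * x * u⁻¹ = x := by rw [hcu x hx, mul_inv_cancel_right]
      rw [e]; exact hx
    · intro hx
      have e : u * (u * x * u⁻¹) = (u * x * u⁻¹) * u := hcu _ hx
      have e' : u * x * u⁻¹ = u⁻¹ * (u * (u * x * u⁻¹)) := by group
      rw [e] at e'
      have e'' : u⁻¹ * (u * x * u⁻¹ * u) = x := by group
      rw [e''] at e'
      rw [← e']; exact hx
  have huT : u ∈ (T' : Subgroup G) := by
    have h1 : u ∈ Subgroup.zpowers u ⊓ Subgroup.normalizer (T' : Set G) :=
      Subgroup.mem_inf.mpr ⟨Subgroup.mem_zpowers u, huN⟩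
    rw [hpg.inf_normalizer_sylow T'] at h1
    exact (Subgroup.mem_inf.mp h1).2
  obtain ⟨g, hg⟩ := MulAction.exists_smul_eq G T₀ T'
  have hmem : ∀ x : G, x ∈ (T' : Subgroup G) ↔ g⁻¹ * x * g ∈ (T₀ : Subgroup G) := by
    intro x
    rw [← hg, Sylow.smul_def, Sylow.pointwise_smul_def]
    exact Cfsg.Agent.Helper1.mem_conj_smul_iff g x _
  have hw : g⁻¹ * u * g ∈ (T₀ : Subgroup G) := (hmem u).mp huT
  have hwZ : (⟨g⁻¹ * u * g, hw⟩ : ↥(T₀ : Subgroup G)) ∈ Z := by
    rw [hZmem]
    intro a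
    apply Subtype.ext
    show (a : G) * (g⁻¹ * u * g) = (g⁻¹ * u * g) * (a : G)
    have ha' : g * (a : G) * g⁻¹ ∈ (T' : Subgroup G) := by
      rw [hmem]
      have e : g⁻¹ * (g * (a : G) * g⁻¹) * g = (a : G) := by group
      rw [e]; exact a.2
    have e := hcu _ ha'
    have e5 : (a : G) * (g⁻¹ * u * g) = g⁻¹ * ((g * (a : G) * g⁻¹) * u) * g := by group
    rw [e5, ← e]
    group
  rcases hZ2 _ hwZ with h1 | h1
  · exfalso
    have h2 : g⁻¹ * u * g = 1 := congrArg Subtype.val h1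
    have h3 : u = 1 := by
      have e : u = g * (g⁻¹ * u * g) * g⁻¹ := by group
      rw [e, h2]; group
    rw [h3, orderOf_one] at hu
    exact absurd hu (by norm_num)
  · have h2 : g⁻¹ * u * g = t := by
      have h3 := congrArg Subtype.val h1
      rw [ht'] at h3
      exact h3
    refine ⟨g, ?_⟩
    rw [← h2]; group

end Cfsg.Agent.Helper22.O504D1
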