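import Mathlib
import Cfsg.Agent.Helper27.SpE1

/-!
helper22: piece P1 of helper10's plan for S2469: the fixed space of an isometry of order prime to
the characteristic inside a nondegenerate invariant subspace is nondegenerate, hence of even
dimension.
-/

set_option autoImplicit false

namespace Cfsg.Agent.Helper22.PSpRS1

theorem even_fix {F V : Type*} [Field F] [AddCommGroup V] [Module F V] [FiniteDimensional F V] (f : LinearMap.BilinForm F V) (halt : ∀ v, f v v = 0) (W : Submodule F V) (hW : ∀ w ∈ W, (∀ w' ∈ W, f w w' = 0) → w = 0) (X : Module.End F V) (hX : ∀ u v, f (X u) (X v) = f u v) (hXW : ∀ w ∈ W, X w ∈ W) (s : ℕ) (hs : (s : F) ≠ 0) (hXs : X ^ s = 1) : (∀ w ∈ W ⊓ LinearMap.ker (X - 1), (∀ w' ∈ W ⊓ LinearMap.ker (X - 1), f w w' = 0) → w = 0) ∧ Even (Module.finrank F ↥(W ⊓ LinearMap.ker (X - 1))) := by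
  have hsucc : ∀ (i : ℕ) (a : V), (X ^ (i + 1)) a = (X ^ i) (X a) := fun i a => by
    rw [pow_succ]; rfl
  have hsucc' : ∀ (i : ℕ) (a : V), (X ^ (i + 1)) a = X ((X ^ i) a) := fun i a => by
    rw [pow_succ']; rfl
  have hzero : ∀ a : V, (X ^ 0) a = a := fun a => by rw [pow_zero]; rfl
  have hXpow : ∀ (i : ℕ) (u v : V), f ((X ^ i) u) ((X ^ i) v) = f u v := by
    intro i
    induction i with
    | zero => intro u v; rw [hzero, hzero]
    | succ i ih =>
      intro u v
      rw [hsucc, hsucc, ih, hX]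
  have hWpow : ∀ (i : ℕ) (w : V), w ∈ W → (X ^ i) w ∈ W := by
    intro i
    induction i with
    | zero => intro w hw; rw [hzero]; exact hw
    | succ i ih =>
      intro w hw
      rw [hsucc]
      exact ih (X w) (hXW w hw)
  have hfixiff : ∀ w : V, w ∈ LinearMap.ker (X - 1) ↔ X w = w := by
    intro w
    rw [LinearMap.mem_ker, LinearMap.sub_apply]
    show X w - w = 0 ↔ X w = w
    exact sub_eq_zero
  have hshift : ∀ u : V,
      ∑ i ∈ Finset.range s, (X ^ (i + 1)) u = ∑ i ∈ Finset.range s, (X ^ i) u := by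
    intro u
    have h1 := Finset.sum_range_succ (fun i => (X ^ i) u) s
    have h2 := Finset.sum_range_succ' (fun i => (X ^ i) u) s
    rw [h1] at h2
    have h3 : (X ^ s) u = (X ^ 0) u := by rw [hXs, pow_zero]
    rw [h3] at h2
    exact (add_right_cancel h2).symm
  have hnd : ∀ w ∈ W ⊓ LinearMap.ker (X - 1),
      (∀ w' ∈ W ⊓ LinearMap.ker (X - 1), f w w' = 0) → w = 0 := by
    intro w hw horth
    obtain ⟨hwW, hwk⟩ := Submodule.mem_inf.mp hw
    have hXw : X w = w := (hfixiff w).mp hwk
    have hwpow : ∀ i : ℕ, (X ^ i) w = w := by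
      intro i
      induction i with
      | zero => exact hzero w
      | succ i ih => rw [hsucc, hXw, ih]
    apply hW w hwW
    intro u hu
    obtain ⟨ubar, hubar⟩ : ∃ ubar : V, ubar = ∑ i ∈ Finset.range s, (X ^ i) u := ⟨_, rfl⟩
    have hubarW : ubar ∈ W := by
      rw [hubar]
      exact Submodule.sum_mem _ (fun i _ => hWpow i u hu)
    have hubarfix : X ubar = ubar := by
      rw [hubar, map_sum]
      have h4 : ∀ i ∈ Finset.range s, X ((X ^ i) u) = (X ^ (i + 1)) u :=
        fun i _ => (hsucc' i u).symm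
      rw [Finset.sum_congr rfl h4]
      exact hshift u
    have hubar_mem : ubar ∈ W ⊓ LinearMap.ker (X - 1) :=
      Submodule.mem_inf.mpr ⟨hubarW, (hfixiff ubar).mpr hubarfix⟩
    have h0 := horth ubar hubar_mem
    have h1 : f w ubar = (s : F) * f w u := by
      rw [hubar, map_sum]
      have h5 : ∀ i ∈ Finset.range s, f w ((X ^ i) u) = f w u := by
        intro i _
        have h2 := hXpow i w u
        rw [hwpow i] at h2
        exact h2
      rw [Finset.sum_congr rfl h5, Finset.sum_const, Finset.card_range, nsmul_eq_mul]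
    rw [h1] at h0
    exact (mul_eq_zero.mp h0).resolve_left hs
  refine ⟨hnd, ?_⟩
  apply Cfsg.Agent.Helper27.SpE1.even_finrank f (fun v => halt v)
  intro a ha ha0
  by_contra hcon
  push Not at hcon
  exact ha0 (hnd a ha hcon)

end Cfsg.Agent.Helper22.PSpRS1
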