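import Mathlib
import Cfsg.Agent.Helper24.CharEigen

/-!
# Character values at `p`-elements modulo `p` (helper22)

`char_ne_zero_of_pow_prime`: if `g` is a `p`-element and `p` does not divide the degree, then
the character does not vanish at `g` (since `χ(g)^(p^a) ≡ χ(1)` modulo `p`).
-/

set_option autoImplicit false

namespace Cfsg.Agent.Helper22

open Cfsg Cfsg.Agent.Helper24 Module

universe u v

theorem int_dvd_of_isIntegral_div {a b : ℤ} (hb : b ≠ 0) {γ : ℂ} (hγ : IsIntegral ℤ γ)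
    (h : (a : ℂ) = b * γ) : b ∣ a := by
  have hbc : (b : ℂ) ≠ 0 := by exact_mod_cast hb
  have hbq : (b : ℚ) ≠ 0 := by exact_mod_cast hb
  have hq : γ = (((a : ℚ) / (b : ℚ) : ℚ) : ℂ) := by
    push_cast
    rw [h]
    field_simp
  have hγ' : IsIntegral ℤ (algebraMap ℚ ℂ ((a : ℚ) / (b : ℚ))) := by
    rw [eq_ratCast, ← hq]
    exact hγ
  have hq' := (isIntegral_algebraMap_iff (algebraMap ℚ ℂ).injective).mp hγ'
  obtain ⟨z, hz⟩ := IsIntegrallyClosed.isIntegral_iff.mp hq'
  have hz' : (z : ℚ) = (a : ℚ) / b := by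
    rw [← hz]
    simp
  have h2 : (a : ℚ) = b * z := by
    rw [hz']
    field_simp
  exact ⟨z, by exact_mod_cast h2⟩

/-- Freshman's dream for sums of `p^a`-th roots of unity. -/
theorem sum_roots_pow_congr (p : ℕ) [hp : Fact p.Prime] (a : ℕ) {ι : Type*} (s : Finset ι)
    (ε : ι → ℂ) (hε : ∀ i ∈ s, ε i ^ (p ^ a) = 1) :
    ∃ γ : ℂ, IsIntegral ℤ γ ∧ (∑ i ∈ s, ε i) ^ (p ^ a) = (s.card : ℂ) + p * γ := by
  classical
  have hq : 0 < p ^ a := Nat.pos_of_ne_zero (pow_ne_zero a hp.out.ne_zero)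
  have hint : ∀ i, IsIntegral ℤ (if i ∈ s then ε i else 1) := by
    intro i
    by_cases hi : i ∈ s
    · rw [if_pos hi]
      exact IsIntegral.of_pow hq (by rw [hε i hi]; exact isIntegral_one)
    · rw [if_neg hi]
      exact isIntegral_one
  obtain ⟨e, he⟩ : ∃ e : ι → integralClosure ℤ ℂ, ∀ i, (e i : ℂ) = if i ∈ s then ε i else 1 :=
    ⟨fun i => ⟨_, hint i⟩, fun i => rfl⟩
  have hnu : ((p : ℕ) : integralClosure ℤ ℂ) ∈ nonunits (integralClosure ℤ ℂ) := by
    rw [mem_nonunits_iff]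
    intro hu
    obtain ⟨u, hu⟩ := hu.exists_right_inv
    have h1 : ((p : ℕ) : ℂ) * (u : ℂ) = 1 := by
      have := congrArg (fun x : integralClosure ℤ ℂ => (x : ℂ)) hu
      simpa using this
    have hdvd : (p : ℤ) ∣ 1 :=
      int_dvd_of_isIntegral_div (a := 1) (b := (p : ℤ)) (by exact_mod_cast hp.out.ne_zero)
        (γ := (u : ℂ)) u.2 (by push_cast; exact h1.symm)
    have hdvd' : p ∣ 1 := by exact_mod_cast hdvd
    exact hp.out.one_lt.ne' (Nat.dvd_one.mp hdvd')
  haveI : CharP (integralClosure ℤ ℂ ⧸ Ideal.span {((p : ℕ) : integralClosure ℤ ℂ)}) p :=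
    CharP.quotient _ p hnu
  have key : Ideal.Quotient.mk (Ideal.span {((p : ℕ) : integralClosure ℤ ℂ)})
        ((∑ i ∈ s, e i) ^ (p ^ a)) =
      Ideal.Quotient.mk (Ideal.span {((p : ℕ) : integralClosure ℤ ℂ)})
        ((s.card : ℕ) : integralClosure ℤ ℂ) := by
    rw [map_pow, map_sum, sum_pow_char_pow, map_natCast]
    have h1 : ∀ i ∈ s, Ideal.Quotient.mk (Ideal.span {((p : ℕ) : integralClosure ℤ ℂ)}) (e i)
        ^ p ^ a = 1 := by
      intro i hi
      rw [← map_pow]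
      have h2 : e i ^ p ^ a = 1 := by
        apply Subtype.ext
        push_cast
        rw [he i, if_pos hi]
        exact hε i hi
      rw [h2, map_one]
    rw [Finset.sum_congr rfl h1]
    simp
  rw [Ideal.Quotient.eq, Ideal.mem_span_singleton'] at key
  obtain ⟨c, hc⟩ := key
  refine ⟨(c : ℂ), c.2, ?_⟩
  have hc' : (c : ℂ) * (p : ℂ) = (∑ i ∈ s, (e i : ℂ)) ^ (p ^ a) - (s.card : ℂ) := by
    have := congrArg (fun x : integralClosure ℤ ℂ => (x : ℂ)) hc
    simpa using this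
  have hsum : ∑ i ∈ s, (e i : ℂ) = ∑ i ∈ s, ε i :=
    Finset.sum_congr rfl fun i hi => by rw [he i, if_pos hi]
  rw [hsum] at hc'
  linear_combination (-1 : ℂ) * hc'

/-- A character of degree prime to `p` does not vanish at `p`-elements. -/
theorem char_ne_zero_of_pow_prime {G : Type u} [Group G] [Finite G] {V : Type v}
    [AddCommGroup V] [Module ℂ V] [FiniteDimensional ℂ V] (ρ : Representation ℂ G V)
    (p : ℕ) [hp : Fact p.Prime] (a : ℕ) (g : G) (hg : g ^ (p ^ a) = 1)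
    (hd : ¬ p ∣ finrank ℂ V) : ρ.character g ≠ 0 := by
  classical
  have hq : 0 < p ^ a := Nat.pos_of_ne_zero (pow_ne_zero a hp.out.ne_zero)
  obtain ⟨S, hS, htr, hdim, -, -⟩ := exists_eigen_decomp (ρ g) (p ^ a) hq
    (by rw [← map_pow, hg, map_one])
  have hchar : ρ.character g =
      ∑ μ ∈ S, μ * (finrank ℂ (Module.End.eigenspace (ρ g) μ) : ℂ) := htr
  intro h0
  obtain ⟨γ, hγ, hγe⟩ := sum_roots_pow_congr p a
    (S.sigma fun μ => Finset.range (finrank ℂ (Module.End.eigenspace (ρ g) μ)))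
    (fun x : (Σ _ : ℂ, ℕ) => x.1)
    (by
      intro x hx
      exact (hS x.1 (Finset.mem_sigma.mp hx).1).1)
  have hsum : ∑ x ∈ S.sigma fun μ => Finset.range (finrank ℂ (Module.End.eigenspace (ρ g) μ)),
      x.1 = ρ.character g := by
    rw [Finset.sum_sigma, hchar]
    refine Finset.sum_congr rfl fun μ hμ => ?_
    show ∑ _j ∈ Finset.range (finrank ℂ (Module.End.eigenspace (ρ g) μ)), μ =
      μ * (finrank ℂ (Module.End.eigenspace (ρ g) μ) : ℂ)
    rw [Finset.sum_const, Finset.card_range, nsmul_eq_mul, mul_comm]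
  have hcard : (S.sigma fun μ =>
      Finset.range (finrank ℂ (Module.End.eigenspace (ρ g) μ))).card = finrank ℂ V := by
    rw [Finset.card_sigma, hdim]
    simp
  rw [hsum, h0, zero_pow hq.ne', hcard] at hγe
  have hdvd : (p : ℤ) ∣ (finrank ℂ V : ℤ) :=
    int_dvd_of_isIntegral_div (a := (finrank ℂ V : ℤ)) (b := (p : ℤ))
      (by exact_mod_cast hp.out.ne_zero) (γ := -γ) hγ.neg
      (by push_cast; linear_combination (-1 : ℂ) * hγe)
  exact hd (by exact_mod_cast hdvd)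

end Cfsg.Agent.Helper22
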